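import Mathlib
import Cfsg.Agent.Lib.HallHigman.Layer
import Cfsg.Agent.Lib.Coprime.InvSylow

/-!
# A minimal `A`-invariant `q`-subgroup not centralised by a central element of order `p`

`A` is a `p`-subgroup of a group with trivial `p`-core, `y ∈ A` is central in `A` of order `p`.
There is an `A`-invariant `q`-subgroup `Q` (`q ≠ p`), minimal subject to `[Q, y] ≠ 1`.  Then the fixed
points of `y` in `Q` are central in `Q`, commutators are fixed and `Q` is generated by the `g⁻¹ y(g)`.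
-/

set_option autoImplicit false

namespace Cfsg.Agent.Lib.HallHigman.MinOver

open Cfsg Cfsg.Agent.Lib.Solvable.PSeries Cfsg.Agent.Lib.Basic.PCore
open scoped commutatorElement

variable {G : Type*} [Group G] [Finite G]

/-- Minimality. -/
structure IsMinOver (A : Subgroup G) (y : G) (Q : Subgroup G) : Prop where
  hA : ∀ a ∈ A, ∀ g ∈ Q, a * g * a⁻¹ ∈ Q
  ne : ∃ g ∈ Q, y * g * y⁻¹ ≠ g
  min : ∀ L : Subgroup G, L ≤ Q → L ≠ Q → (∀ a ∈ A, ∀ g ∈ L, a * g * a⁻¹ ∈ L) →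
    ∀ g ∈ L, y * g * y⁻¹ = g

theorem exists_isMinOver (A : Subgroup G) (y : G) (S : Subgroup G)
    (hx : ∀ a ∈ A, ∀ g ∈ S, a * g * a⁻¹ ∈ S)
    (hne : ∃ g ∈ S, y * g * y⁻¹ ≠ g) : ∃ Q ≤ S, IsMinOver A y Q := by
  classical
  let F : Set (Subgroup G) := {L | L ≤ S ∧ (∀ a ∈ A, ∀ g ∈ L, a * g * a⁻¹ ∈ L) ∧ ∃ g ∈ L, y * g * y⁻¹ ≠ g}
  have hF : F.Nonempty := ⟨S, le_rfl, hx, hne⟩
  obtain ⟨Q, hQ, hmin⟩ := (wellFounded_lt (α := Subgroup G)).has_min F hF
  refine ⟨Q, hQ.1, hQ.2.1, hQ.2.2, ?_⟩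
  intro L hLQ hne hLx g hg
  by_contra hcon
  exact hmin L ⟨le_trans hLQ hQ.1, hLx, g, hg, hcon⟩ (lt_of_le_of_ne hLQ hne)

variable {A : Subgroup G} {y : G} {Q : Subgroup G} {q : ℕ} [Fact q.Prime]

/-- A commutator of elements of `Q` is fixed. -/
theorem comm_fixed (h : IsMinOver A y Q) (hQ : IsPGroup q Q) {a b : G} (ha : a ∈ Q) (hb : b ∈ Q) :
    y * (a * b * a⁻¹ * b⁻¹) * y⁻¹ = a * b * a⁻¹ * b⁻¹ := by
  haveI : Nontrivial Q := by
    obtain ⟨g, hg, hg2⟩ := h.ne
    refine ⟨⟨g, hg⟩, 1, ?_⟩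
    intro h1
    have h2 : g = 1 := congrArg Subtype.val h1
    subst h2
    simp at hg2
  haveI : Group.IsNilpotent Q := hQ.isNilpotent
  have hlt : commutator Q < ⊤ := Group.IsSolvable.commutator_lt_top_of_nontrivial Q
  set L : Subgroup G := ⁅Q, Q⁆ with hL
  have hLQ : L ≤ Q := by
    rw [hL, Subgroup.commutator_le]
    intro g hg k hk
    rw [commutatorElement_def]
    exact mul_mem (mul_mem (mul_mem hg hk) (inv_mem hg)) (inv_mem hk)
  have hLne : L ≠ Q := by
    intro hLeq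
    apply hlt.ne
    rw [eq_top_iff]
    rintro ⟨g, hg⟩ _
    have h1 : g ∈ ⁅Q, Q⁆ := by rw [← hL, hLeq]; exact hg
    have h2 : (commutator Q).map Q.subtype = ⁅Q, Q⁆ := by
      rw [commutator_def, Subgroup.map_commutator, ← MonoidHom.range_eq_map, Subgroup.range_subtype]
    rw [← h2] at h1
    obtain ⟨g', hg', e⟩ := h1
    have : g' = ⟨g, hg⟩ := Subtype.ext e
    rwa [← this]
  have hLx : ∀ z ∈ A, ∀ g ∈ L, z * g * z⁻¹ ∈ L := by
    intro z hz g hg
    have h1 : L.map (MulAut.conj z).toMonoidHom ≤ L := by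
      rw [hL, Subgroup.map_commutator]
      have h2 : Q.map (MulAut.conj z).toMonoidHom ≤ Q := by
        rintro _ ⟨t, ht, rfl⟩
        exact h.hA z hz t ht
      exact Subgroup.commutator_mono h2 h2
    exact h1 ⟨g, hg, rfl⟩
  have := h.min L hLQ hLne hLx (⁅a, b⁆) (Subgroup.commutator_mem_commutator ha hb)
  rw [commutatorElement_def] at this
  exact this

/-- `Q` is generated by the `g⁻¹ y(g)`. -/
theorem closure_eq (h : IsMinOver A y Q) (hQ : IsPGroup q Q) {p : ℕ} (hpq : p.Coprime q)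
    (hyp : y ^ p = 1) (hxy : ∀ a ∈ A, a * y = y * a) (hyQ : ∀ g ∈ Q, y * g * y⁻¹ ∈ Q) :
    Subgroup.closure {u | ∃ g ∈ Q, u = g⁻¹ * (y * g * y⁻¹)} = Q := by
  set L := Subgroup.closure {u | ∃ g ∈ Q, u = g⁻¹ * (y * g * y⁻¹)} with hL
  have hLQ : L ≤ Q := by
    rw [hL, Subgroup.closure_le]
    rintro _ ⟨g, hg, rfl⟩
    exact mul_mem (inv_mem hg) (hyQ g hg)
  by_contra hne
  have hLx : ∀ x ∈ A, ∀ g ∈ L, x * g * x⁻¹ ∈ L := by
    intro x hx g hg
    have h1 : L ≤ L.comap (MulAut.conj x).toMonoidHom := by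
      rw [hL, Subgroup.closure_le]
      rintro _ ⟨t, ht, rfl⟩
      refine Subgroup.subset_closure ⟨x * t * x⁻¹, h.hA x hx t ht, ?_⟩
      simp only [MulAut.conj_apply, MulEquiv.toMonoidHom_eq_coe, MonoidHom.coe_coe]
      have hy' : y = x * y * x⁻¹ := by rw [hxy x hx]; group
      calc x * (t⁻¹ * (y * t * y⁻¹)) * x⁻¹
          = (x * t * x⁻¹)⁻¹ * ((x * y * x⁻¹) * (x * t * x⁻¹) * (x * y * x⁻¹)⁻¹) := by group
        _ = _ := by rw [← hy']
    exact h1 hg
  have hfix := h.min L hLQ hne hLx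
  obtain ⟨g, hg, hg2⟩ := h.ne
  apply hg2
  set u := g⁻¹ * (y * g * y⁻¹) with hu
  have hum : u ∈ L := Subgroup.subset_closure ⟨g, hg, rfl⟩
  have huy : y * u * y⁻¹ = u := hfix u hum
  have hpow : ∀ i : ℕ, y ^ i * g * (y ^ i)⁻¹ = g * u ^ i := by
    intro i
    induction i with
    | zero => simp
    | succ i ih =>
      have e1 : y ^ (i + 1) * g * (y ^ (i + 1))⁻¹ = y * (y ^ i * g * (y ^ i)⁻¹) * y⁻¹ := by
        rw [pow_succ']; group
      rw [e1, ih]
      have e2 : y * (g * u ^ i) * y⁻¹ = (y * g * y⁻¹) * (y * u ^ i * y⁻¹) := by group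
      have e3 : y * u ^ i * y⁻¹ = u ^ i := by
        induction i with
        | zero => simp
        | succ j _ =>
          have e4 : (y * u ^ (j + 1) * y⁻¹) = (y * u * y⁻¹) ^ (j + 1) := by
            simp [conj_pow]
          rw [e4, huy]
      have e5 : y * g * y⁻¹ = g * u := by rw [hu]; group
      rw [e2, e3, e5, pow_succ']
      group
  have hup : u ^ p = 1 := by
    have := hpow p
    rw [hyp] at this
    simpa using this.symm
  have huQ : u ∈ Q := hLQ hum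
  obtain ⟨k, hk⟩ := hQ ⟨u, huQ⟩
  have hk' : u ^ q ^ k = 1 := by
    have := congrArg Subtype.val hk
    simpa using this
  have h1 : orderOf u ∣ p := orderOf_dvd_of_pow_eq_one hup
  have h2 : orderOf u ∣ q ^ k := orderOf_dvd_of_pow_eq_one hk'
  have h3 : orderOf u = 1 := Nat.eq_one_of_dvd_coprimes (hpq.pow_right k) h1 h2
  have h4 : u = 1 := orderOf_eq_one_iff.mp h3
  have e5 : y * g * y⁻¹ = g * u := by rw [hu]; group
  rw [e5, h4, mul_one]

/-- Fixed points of `y` in `Q` are central in `Q`. -/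
theorem fixed_central (h : IsMinOver A y Q) (hQ : IsPGroup q Q) {p : ℕ} (hpq : p.Coprime q)
    (hyp : y ^ p = 1) (hxy : ∀ a ∈ A, a * y = y * a) (hyQ : ∀ g ∈ Q, y * g * y⁻¹ ∈ Q) {c : G} (hc : c ∈ Q)
    (hcy : y * c * y⁻¹ = c) : ∀ g ∈ Q, c * g = g * c := by
  have hcl := closure_eq h hQ hpq hyp hxy hyQ
  have hle : Q ≤ Subgroup.centralizer ({c} : Set G) := by
    rw [← hcl, Subgroup.closure_le]
    rintro _ ⟨g, hg, rfl⟩
    rw [SetLike.mem_coe, Subgroup.mem_centralizer_singleton_iff]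
    have h1 := comm_fixed h hQ hg hc
    -- `(g⁻¹ y(g)) c = c (g⁻¹ y(g))`
    have h2 : (y * g * y⁻¹) * c * (y * g * y⁻¹)⁻¹ = g * c * g⁻¹ := by
      have e : y * (g * c * g⁻¹ * c⁻¹) * y⁻¹ =
          (y * g * y⁻¹) * (y * c * y⁻¹) * (y * g * y⁻¹)⁻¹ * (y * c * y⁻¹)⁻¹ := by group
      rw [e, hcy] at h1
      exact mul_right_cancel h1
    have h3 : (y * g * y⁻¹) * c = g * c * g⁻¹ * (y * g * y⁻¹) := by
      rw [← h2]; group
    calc g⁻¹ * (y * g * y⁻¹) * c = g⁻¹ * ((y * g * y⁻¹) * c) := by group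
      _ = g⁻¹ * (g * c * g⁻¹ * (y * g * y⁻¹)) := by rw [h3]
      _ = c * (g⁻¹ * (y * g * y⁻¹)) := by group
  intro g hg
  have := Subgroup.mem_centralizer_singleton_iff.mp (hle hg)
  exact this.symm

/-- An element of order `p` in a `p`-subgroup `A`, with `O_p(G) = 1`, moves an `A`-invariant
`q`-subgroup. -/
theorem exists_invariant_q {p : ℕ} [hp : Fact p.Prime] (hsol : IsPSolvable p G) (hOp : pCore p G = ⊥)
    (A : Subgroup G) (hA : IsPGroup p A) (y : G) (hy1 : y ≠ 1) (hyo : y ^ p = 1) :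
    ∃ (q : ℕ) (_ : Fact q.Prime) (S : Subgroup G), p ≠ q ∧ IsPGroup q S ∧
      (∀ a ∈ A, ∀ g ∈ S, a * g * a⁻¹ ∈ S) ∧ ∃ g ∈ S, y * g * y⁻¹ ≠ g := by
  classical
  set N := pPrimeCore p G with hN
  haveI hNn : N.Normal := pPrimeCore_normal p G
  have hNcop : (Nat.card N).Coprime p := pPrimeCore_coprime p
  have hAn : A ≤ Subgroup.normalizer (N : Set G) := by
    apply Cfsg.Agent.Lib.Coprime.InvSylow.le_normalizer_of_forall_conj_mem
    intro a _ t ht
    exact hNn.conj_mem t ht a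
  have hcop : (Nat.card A).Coprime (Nat.card N) := by
    obtain ⟨k, hk⟩ := IsPGroup.iff_card.mp hA
    rw [hk]
    exact (Nat.Coprime.pow_right k hNcop).symm
  haveI : Group.IsNilpotent A := hA.isNilpotent
  have hsolv : Group.IsSolvable A ∨ Group.IsSolvable N := Or.inl inferInstance
  by_contra hcon
  push Not at hcon
  have hall : ∀ (q : ℕ) [Fact q.Prime], ∃ P : Sylow q N, ∀ g ∈ (P : Subgroup N), y * (g : G) * y⁻¹ = g := by
    intro q hq
    obtain ⟨P, hP⟩ := Cfsg.Agent.Lib.Coprime.InvSylow.exists_invariant_sylow hAn hcop hsolv q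
    refine ⟨P, fun g hg => ?_⟩
    by_cases hpq : p = q
    · subst hpq
      have h1 : IsPGroup p (P : Subgroup N) := P.isPGroup'
      have h2 : orderOf g ∣ Nat.card N := orderOf_dvd_natCard g
      obtain ⟨k, hk⟩ := h1 ⟨g, hg⟩
      have h3 : g ^ p ^ k = 1 := by
        have := congrArg Subtype.val hk
        simpa using this
      have h4 : orderOf g ∣ p ^ k := orderOf_dvd_of_pow_eq_one h3
      have h5 : orderOf g = 1 := Nat.eq_one_of_dvd_coprimes (hNcop.pow_right k) h2 h4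
      have h6 : g = 1 := orderOf_eq_one_iff.mp h5
      rw [h6]
      simp
    · have hq' := hcon q hq ((P : Subgroup N).map N.subtype) hpq (P.isPGroup'.map _)
        (fun a ha g hg => by
          have := (Subgroup.mem_normalizer_iff.mp (hP ha) g).mp hg
          exact this)
      exact hq' g ⟨g, hg, rfl⟩
  set Cy : Subgroup N := (Subgroup.centralizer ({y} : Set G)).subgroupOf N with hCy
  have hCytop : Cy = ⊤ := by
    by_contra hne
    have hidx : Cy.index ≠ 1 := fun h => hne (Subgroup.index_eq_one.mp h)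
    obtain ⟨q, hq, hqd⟩ := Nat.exists_prime_and_dvd hidx
    haveI : Fact q.Prime := ⟨hq⟩
    obtain ⟨P, hP⟩ := hall q
    have hle : (P : Subgroup N) ≤ Cy := by
      intro g hg
      have h1 := hP g hg
      rw [hCy, Subgroup.mem_subgroupOf, Subgroup.mem_centralizer_singleton_iff]
      calc (g : G) * y = (y * g * y⁻¹) * y := by rw [h1]
        _ = y * g := by group
    have h2 : Cy.index ∣ (P : Subgroup N).index := Subgroup.index_dvd_of_le hle
    exact P.not_dvd_index (dvd_trans hqd h2)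
  have hyC : y ∈ Subgroup.centralizer (N : Set G) := by
    rw [Subgroup.mem_centralizer_iff]
    intro g hg
    have h1 : (⟨g, hg⟩ : N) ∈ Cy := by rw [hCytop]; trivial
    rw [hCy, Subgroup.mem_subgroupOf, Subgroup.mem_centralizer_singleton_iff] at h1
    exact h1
  have hyN : y ∈ N := Cfsg.Agent.Lib.HallHigman.TheoremB.centralizer_pPrimeCore_le hsol hOp hyC
  have h1 : orderOf y ∣ Nat.card N := by
    have := orderOf_dvd_natCard (⟨y, hyN⟩ : N)
    rwa [Subgroup.orderOf_mk] at this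
  have h2 : orderOf y ∣ p := orderOf_dvd_of_pow_eq_one hyo
  have h3 : orderOf y = 1 := Nat.eq_one_of_dvd_coprimes hNcop h1 h2
  exact hy1 (orderOf_eq_one_iff.mp h3)

end Cfsg.Agent.Lib.HallHigman.MinOver
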