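import Mathlib
import Cfsg.Agent.Lib.HallHigman.MinOver

/-!
# The exceptional case for `(y - 1) ^ 2 = 0`

`F` a `p`-subgroup (`p` odd) of a `p`-soluble group acting faithfully in characteristic `p` with `O_p = 1`,
`y ∈ F' ∩ Z(F)` of order `p`.  It is impossible that `(y - 1) ^ 2 = 0` and `(y - 1)(a - 1) ^ 2 = 0` for
all `a ∈ F`.
-/

set_option autoImplicit false
set_option linter.unusedSectionVars false

namespace Cfsg.Agent.Lib.HallHigman.LemmaD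

open Module Cfsg Cfsg.Agent.Lib.OddOrder.HHCore Cfsg.Agent.Lib.OddOrder.HHGroup
open Cfsg.Agent.Lib.HallHigman.Core Cfsg.Agent.Lib.HallHigman.Block Cfsg.Agent.Lib.HallHigman.Level
open Cfsg.Agent.Lib.HallHigman.Reduce Cfsg.Agent.Lib.HallHigman.MinOver Cfsg.Agent.Lib.Ward
open scoped commutatorElement

variable {G : Type*} [Group G] [Finite G] {K : Type*} [Field K] {p : ℕ} [hp : Fact p.Prime]
variable {V : Type*} [AddCommGroup V] [Module K V]

/-- If a power `a ^ m` moves a weight, the weights of `a ^ i` and `a ^ (i + m)` differ. -/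
theorem wtConj_ne {N : Subgroup G} {a : G} (haN : a ∈ Subgroup.normalizer (N : Set G)) {μ : G → K}
    (i m : ℕ) (h : a ^ m ∉ wtStab N μ) : ∃ y ∈ N, wtConj (a ^ i) μ y ≠ wtConj (a ^ (i + m)) μ y := by
  by_contra hcon
  push Not at hcon
  apply h
  refine ⟨pow_mem haN m, fun y hy => ?_⟩
  have hy' : a ^ i * y * (a ^ i)⁻¹ ∈ N := conj_mem_of_norm le_rfl (pow_mem haN i) hy
  have := hcon _ hy'
  simp only [wtConj] at this
  have e1 : (a ^ i)⁻¹ * (a ^ i * y * (a ^ i)⁻¹) * a ^ i = y := by group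
  have e2 : (a ^ (i + m))⁻¹ * (a ^ i * y * (a ^ i)⁻¹) * a ^ (i + m) = (a ^ m)⁻¹ * y * a ^ m := by
    rw [pow_add]; group
  rw [e1, e2] at this
  exact this.symm

/-- **Orbit lemma.**  If `(a - 1) ^ 2` kills a nonzero weight vector, `a` (a `p`-element, `p` odd)
stabilises the weight. -/
theorem stab_of_sq_zero (hp2 : p ≠ 2) (ρ : G →* End K V) {N : Subgroup G} {a : G}
    (haN : a ∈ Subgroup.normalizer (N : Set G)) {k : ℕ} (ha : a ^ p ^ k = 1) {μ : G → K} {w : V}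
    (hw : IsWt ρ N μ w) (hw0 : w ≠ 0) (h : ((ρ a - 1) ^ 2 : End K V) w = 0) : a ∈ wtStab N μ := by
  classical
  by_contra hns
  have h2 : a ^ 2 ∉ wtStab N μ := by
    intro h2
    apply hns
    refine mem_of_pow_mem ha h2 ?_
    apply Nat.Coprime.pow_right
    rw [Nat.coprime_primes Nat.prime_two hp.out]
    exact hp2.symm
  have h1' : a ^ 1 ∉ wtStab N μ := by rwa [pow_one]
  have hcK : ∀ i : ℕ, ∀ y ∈ N, (a ^ i)⁻¹ * y * a ^ i ∈ N := fun i y hy =>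
    conj_inv_mem_of_norm le_rfl (pow_mem haN i) hy
  have hdist : ∀ i ∈ Finset.range 3, ∀ j ∈ Finset.range 3, i ≠ j →
      ∃ y ∈ N, wtConj (a ^ i) μ y ≠ wtConj (a ^ j) μ y := by
    intro i hi j hj hij
    rw [Finset.mem_range] at hi hj
    have key : ∀ i j : ℕ, i < j → j < 3 → ∃ y ∈ N, wtConj (a ^ i) μ y ≠ wtConj (a ^ j) μ y := by
      intro i j hij hj
      obtain ⟨m, rfl⟩ : ∃ m, j = i + m := ⟨j - i, by omega⟩
      have hm : m = 1 ∨ m = 2 := by omega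
      rcases hm with rfl | rfl
      · exact wtConj_ne haN i 1 h1'
      · exact wtConj_ne haN i 2 h2
    rcases lt_or_gt_of_ne hij with h' | h'
    · exact key i j h' hj
    · obtain ⟨y, hy, hne⟩ := key j i h' hi
      exact ⟨y, hy, hne.symm⟩
  let c : ℕ → K := fun i => if i = 0 then 1 else if i = 1 then -2 else 1
  have hs : ∑ i ∈ Finset.range 3, c i • ρ (a ^ i) w = 0 := by
    have e : ((ρ a - 1) ^ 2 : End K V) w = ρ (a ^ 2) w - (2 : K) • ρ a w + w := by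
      have e0 : (ρ a - 1) ^ 2 = ρ a ^ 2 - (2 : K) • ρ a + 1 := by
        rw [pow_two, pow_two, two_smul]
        noncomm_ring
      rw [e0, map_pow]
      simp
    rw [e] at h
    rw [Finset.sum_range_succ, Finset.sum_range_succ, Finset.sum_range_one]
    simp only [c, pow_zero, map_one, Module.End.one_apply, pow_one]
    simp only [if_true, one_smul, one_ne_zero, if_false, OfNat.ofNat_ne_zero, OfNat.ofNat_ne_one]
    rw [neg_smul, ← h]
    abel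
  have := eq_zero_of_sum_eq_zero (ρ := ρ) (K := N) (Finset.range 3)
    (fun i => wtConj (a ^ i) μ) hdist (fun i => c i • ρ (a ^ i) w)
    (fun i _ => (hw.conj (hcK i)).smul _) hs 0 (Finset.mem_range.mpr (by norm_num))
  apply hw0
  simpa [c] using this

section Min

variable {A : Subgroup G} {y : G} {Q : Subgroup G} {q : ℕ} [Fact q.Prime]

/-- If `y` acts trivially on a `y`- and `Q`-invariant subspace, so does `Q`. -/
theorem trivial_of_y_trivial (h : IsMinOver A y Q) (hQ : IsPGroup q Q) (hpq : p.Coprime q)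
    (hyp : y ^ p = 1) (hxy : ∀ a ∈ A, a * y = y * a) (hyQ : ∀ g ∈ Q, y * g * y⁻¹ ∈ Q)
    (ρ : G →* End K V) (U : Submodule K V) (hUQ : ∀ g ∈ Q, ∀ v ∈ U, ρ g v ∈ U)
    (htriv : ∀ v ∈ U, ρ y v = v) : ∀ g ∈ Q, ∀ v ∈ U, ρ g v = v := by
  let L : Subgroup G :=
    { carrier := {g | ∀ v ∈ U, ρ g v = v}
      mul_mem' := by
        intro a b ha hb v hv
        rw [rho_mul, hb v hv, ha v hv]
      one_mem' := by
        intro v _
        simp
      inv_mem' := by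
        intro a ha v hv
        conv_lhs => rw [← ha v hv]
        exact rho_inv_mul ρ a v }
  have hle : Q ≤ L := by
    rw [← closure_eq h hQ hpq hyp hxy hyQ, Subgroup.closure_le]
    rintro _ ⟨g, hg, rfl⟩
    intro v hv
    have h1 : ρ y⁻¹ v = v := by
      conv_lhs => rw [← htriv v hv]
      exact rho_inv_mul ρ y v
    have e : ρ (g⁻¹ * (y * g * y⁻¹)) v = ρ g⁻¹ (ρ y (ρ g (ρ y⁻¹ v))) := by
      simp only [rho_mul]
    rw [e, h1, htriv _ (hUQ g hg v hv), rho_inv_mul]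
  exact fun g hg => hle hg

end Min

/-- The Heisenberg structure on a weight space of the subgroup acting centrally. -/
theorem isHeis_centerOn (ρ : G →* End K V) (Q : Subgroup G) (U₁ : Submodule K V)
    (hU₁Q : ∀ g ∈ Q, ∀ v ∈ U₁, ρ g v ∈ U₁) (μ : G → K) (U₂ : Submodule K V)
    (hU₂ : U₂ = U₁ ⊓ wtSpace ρ (centerOn ρ Q U₁ hU₁Q) μ)
    (hU₂Q : ∀ g ∈ Q, ∀ v ∈ U₂, ρ g v ∈ U₂)
    (hscal : ∀ u ∈ Q, ∀ g ∈ Q, ∃ t : K, ∀ v ∈ U₁, ρ (u * g * u⁻¹ * g⁻¹) v = t • v)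
    {w' : V} (hw' : w' ∈ U₂) (hw'0 : w' ≠ 0) :
    IsHeis (qRep ρ Q U₂ hU₂Q) ((centerOn ρ Q U₁ hU₁Q).subgroupOf Q) := by
  set R := centerOn ρ Q U₁ hU₁Q with hR
  have hRscal : ∀ u ∈ Q, ∀ g ∈ Q, u * g * u⁻¹ * g⁻¹ ∈ R := by
    intro u hu g hg
    have hz : u * g * u⁻¹ * g⁻¹ ∈ Q := mul_mem (mul_mem (mul_mem hu hg) (inv_mem hu)) (inv_mem hg)
    refine ⟨hz, fun h hh v hv => ?_⟩
    obtain ⟨t, ht⟩ := hscal u hu g hg
    rw [ht _ (hU₁Q h hh v hv), ht v hv, map_smul]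
  have hw'U₁ : w' ∈ U₁ := by
    rw [hU₂] at hw'
    exact (Submodule.mem_inf.mp hw').1
  refine ⟨?_, ?_, ?_⟩
  · intro g hg
    refine ⟨μ g, ?_⟩
    ext v
    have hv2 : (v : V) ∈ U₁ ⊓ wtSpace ρ R μ := by
      rw [← hU₂]
      exact v.2
    have h1 := (Submodule.mem_inf.mp hv2).2 g hg
    simp only [qRep_apply, LinearMap.smul_apply, Module.End.one_apply]
    rw [h1]
    rfl
  · intro u g
    exact hRscal u u.2 g g.2
  · intro g hg
    have hg' : (g : G) ∉ R := hg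
    have h1 : ¬ ∀ h ∈ Q, ∀ v ∈ U₁, ρ g (ρ h v) = ρ h (ρ g v) := fun h => hg' ⟨g.2, h⟩
    push Not at h1
    obtain ⟨h, hh, v, hv, hne'⟩ := h1
    refine ⟨⟨h, hh⟩, ?_⟩
    obtain ⟨t, ht⟩ := hscal h hh g g.2
    intro hone
    have h2 : ρ (h * (g : G) * h⁻¹ * (g : G)⁻¹) w' = w' := by
      have := congrArg (fun f : End K U₂ => ((f ⟨w', hw'⟩ : U₂) : V)) hone
      simpa using this
    have h3 : t = 1 := by
      rw [ht w' hw'U₁] at h2
      have h4 : (t - 1) • w' = 0 := by rw [sub_smul, one_smul, h2, sub_self]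
      exact sub_eq_zero.mp ((smul_eq_zero.mp h4).resolve_right hw'0)
    apply hne'
    have h4 := ht (ρ g (ρ h v)) (hU₁Q g g.2 _ (hU₁Q h hh v hv))
    have e : ρ (h * (g : G) * h⁻¹ * (g : G)⁻¹) (ρ g (ρ h v)) = ρ h (ρ g v) := by
      simp only [rho_mul, rho_inv_mul]
    rw [e, h3, one_smul] at h4
    exact h4.symm

/-- A group of odd prime power order acting on a set with `4` elements acts through an abelian group;
so elements of its derived subgroup act trivially. -/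
theorem trivial_on_four (F : Subgroup G) (hF : IsPGroup p F) (hp2 : p ≠ 2) {X : Type*} [Finite X]
    (hX : Nat.card X = 4) (φ : F →* Equiv.Perm X) {y : G} (hyF : y ∈ ⁅F, F⁆) (hyF' : y ∈ F) :
    φ ⟨y, hyF'⟩ = 1 := by
  classical
  have himg : IsPGroup p φ.range := by
    exact IsPGroup.of_surjective hF φ.rangeRestrict φ.rangeRestrict_surjective
  obtain ⟨k, hk⟩ := IsPGroup.iff_card.mp himg
  have hdvd : Nat.card φ.range ∣ 24 := by
    have h1 := Subgroup.card_subgroup_dvd_card φ.range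
    rw [Nat.card_perm, hX] at h1
    exact h1
  rw [hk] at hdvd
  have hcomm : ∀ a b : F, φ a * φ b = φ b * φ a := by
    have hle : p ^ k ∈ Nat.divisors 24 := Nat.mem_divisors.mpr ⟨hdvd, by norm_num⟩
    rcases Nat.eq_zero_or_pos k with rfl | hk0
    · rw [pow_zero] at hk
      haveI : Subsingleton φ.range := (Nat.card_eq_one_iff_unique.mp hk).1
      intro a b
      have h1 : (⟨φ a, a, rfl⟩ : φ.range) = ⟨φ 1, 1, rfl⟩ := Subsingleton.elim _ _
      have h2 : φ a = φ 1 := congrArg Subtype.val h1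
      rw [h2, map_one, one_mul, mul_one]
    · -- `p ^ k ∣ 24`, `p` odd, so `p = 3`, `k = 1`
      have hp3 : p ∣ 24 := dvd_trans (dvd_pow_self p hk0.ne') hdvd
      have hp' : p ∣ 2 ^ 3 * 3 := by simpa using hp3
      have hp3' : p = 3 := by
        rcases (Nat.Prime.dvd_mul hp.out).mp hp' with h | h
        · exact absurd ((Nat.prime_dvd_prime_iff_eq hp.out Nat.prime_two).mp (hp.out.dvd_of_dvd_pow h)) hp2
        · exact (Nat.prime_dvd_prime_iff_eq hp.out Nat.prime_three).mp h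
      subst hp3'
      have hk1 : k = 1 := by
        by_contra hne
        have h2 : 2 ≤ k := by omega
        have h3 : 3 ^ 2 ∣ 24 := dvd_trans (pow_dvd_pow 3 h2) hdvd
        omega
      subst hk1
      rw [pow_one] at hk
      haveI : IsCyclic φ.range := isCyclic_of_prime_card hk
      have hc : IsMulCommutative φ.range := IsCyclic.isMulCommutative
      intro a b
      have := hc.is_comm.comm (⟨φ a, a, rfl⟩ : φ.range) ⟨φ b, b, rfl⟩
      exact congrArg Subtype.val this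
  let L : Subgroup G := φ.ker.map F.subtype
  have hle : ⁅F, F⁆ ≤ L := by
    rw [Subgroup.commutator_le]
    intro a ha b hb
    refine ⟨⁅(⟨a, ha⟩ : F), (⟨b, hb⟩ : F)⁆, ?_, rfl⟩
    show φ _ = 1
    rw [commutatorElement_def]
    simp only [map_mul, map_inv]
    rw [hcomm ⟨a, ha⟩ ⟨b, hb⟩]
    group
  obtain ⟨z, hz, e⟩ := hle hyF
  have : z = ⟨y, hyF'⟩ := Subtype.ext e
  rw [← this]
  exact hz

/-- The action on the quotient: `F` acts on `Q ⧸ C`. -/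
theorem exists_quot_action (F : Subgroup G) (Q : Subgroup G) (C : Subgroup Q) [C.Normal]
    (hFQ : ∀ a ∈ F, ∀ g ∈ Q, a * g * a⁻¹ ∈ Q)
    (hFC : ∀ a (ha : a ∈ F) (c : Q), conjAutOf Q a (hFQ a ha) c ∈ C ↔ c ∈ C) :
    ∃ φ : F →* Equiv.Perm (Q ⧸ C), ∀ (a : F) (g : Q),
      φ a (g : Q ⧸ C) = ((conjAutOf Q a (hFQ a a.2) g : Q) : Q ⧸ C) := by
  classical
  have hmap : ∀ a (ha : a ∈ F), C.map (conjAutOf Q a (hFQ a ha)).toMonoidHom = C := by
    intro a ha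
    ext c
    constructor
    · rintro ⟨c', hc', rfl⟩
      exact (hFC a ha c').mpr hc'
    · intro hc
      obtain ⟨c', rfl⟩ := (conjAutOf Q a (hFQ a ha)).surjective c
      exact ⟨c', (hFC a ha c').mp hc, rfl⟩
  let f : F → Equiv.Perm (Q ⧸ C) := fun a =>
    (QuotientGroup.congr C C (conjAutOf Q a (hFQ a a.2)) (hmap a a.2)).toEquiv
  have hf : ∀ (a : F) (g : Q), f a (g : Q ⧸ C) = ((conjAutOf Q a (hFQ a a.2) g : Q) : Q ⧸ C) := by
    intro a g
    exact QuotientGroup.congr_mk _ _ _ _ _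
  refine ⟨MonoidHom.mk' f ?_, hf⟩
  intro a b
  ext x
  obtain ⟨g, rfl⟩ := QuotientGroup.mk_surjective x
  have e : conjAutOf Q ((a * b : F) : G) (hFQ _ (a * b).2) g =
      conjAutOf Q a (hFQ a a.2) (conjAutOf Q b (hFQ b b.2) g) := by
    apply Subtype.ext
    simp only [conjAutOf_coe, Subgroup.coe_mul]
    group
  rw [Equiv.Perm.mul_apply, hf, hf, hf, e]

variable [CharP K p]

/-- The weight fixed by `y` when `(y - 1) ^ s = 0` with `s < p`. -/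
theorem stab_of_small (ρ : G →* End K V) {y : G} (hyo : y ^ p = 1) {N : Subgroup G}
    (hyN : y ∈ Subgroup.normalizer (N : Set G)) (μ : G → K) (U : Submodule K V)
    (hUy : ∀ v ∈ U, ρ y v ∈ U) {s : ℕ} (hsp : s < p) (hs : ∀ v ∈ U, ((ρ y - 1) ^ s) v = 0)
    {w : V} (hw : w ∈ U ⊓ wtSpace ρ N μ) (hw0 : w ≠ 0) : y ∈ wtStab N μ := by
  have hy1 : y ^ p ^ 1 = 1 := by rwa [pow_one]
  obtain ⟨c, hc1, hc2, _, hres⟩ := weight_step ρ y hy1 N hyN μ U hUy s hs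
  have hc : c = 0 ∨ c = 1 := by omega
  rcases hc with rfl | rfl
  · simpa using hc2
  · exfalso
    have h1 := hres w hw
    rw [pow_one, Nat.div_eq_of_lt hsp, pow_zero] at h1
    exact hw0 h1

/-- **Lemma D.**  -/
theorem lemma_d [IsAlgClosed K] [FiniteDimensional K V] (hp2 : p ≠ 2) (ρ : G →* End K V)
    (hρ : Function.Injective ρ) (hsol : IsPSolvable p G) (hOp : pCore p G = ⊥) (F : Subgroup G)
    (hF : IsPGroup p F) (y : G) (hyF : y ∈ ⁅F, F⁆) (hyc : ∀ a ∈ F, a * y = y * a) (hy1 : y ≠ 1)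
    (hyo : y ^ p = 1) (hy2 : (ρ y - 1) ^ 2 = 0) (hya : ∀ a ∈ F, (ρ y - 1) * (ρ a - 1) ^ 2 = 0) :
    False := by
  classical
  have hp3 : 3 ≤ p := by
    have := hp.out.two_le
    omega
  have hyF' : y ∈ F := by
    have h1 : ⁅F, F⁆ ≤ F := by
      rw [Subgroup.commutator_le]
      intro g hg k hk
      rw [commutatorElement_def]
      exact mul_mem (mul_mem (mul_mem hg hk) (inv_mem hg)) (inv_mem hk)
    exact h1 hyF
  have hyord : orderOf y = p ^ 1 := by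
    rw [pow_one]
    exact orderOf_eq_prime hyo hy1
  have haord : ∀ a ∈ F, ∃ k, a ^ p ^ k = 1 := by
    intro a ha
    obtain ⟨k, hk⟩ := hF ⟨a, ha⟩
    refine ⟨k, ?_⟩
    have := congrArg Subtype.val hk
    simpa using this
  obtain ⟨q, hq, S, hpq, hS, hSA, hSne⟩ := exists_invariant_q hsol hOp F hF y hy1 hyo
  obtain ⟨Q, hQS, hmin⟩ := exists_isMinOver F y S hSA hSne
  have hQ : IsPGroup q Q := hS.to_le hQS
  have hpq' : p.Coprime q := (Nat.coprime_primes hp.out hq.out).mpr hpq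
  have hQK : (Nat.card Q : K) ≠ 0 := by
    obtain ⟨k, hk⟩ := IsPGroup.iff_card.mp hQ
    rw [hk, Nat.cast_pow]
    apply pow_ne_zero
    intro h0
    have := (CharP.cast_eq_zero_iff K p q).mp h0
    exact hpq ((Nat.prime_dvd_prime_iff_eq hp.out hq.out).mp this)
  have hQF := hmin.hA
  have hyQ : ∀ g ∈ Q, y * g * y⁻¹ ∈ Q := hQF y hyF'
  by_cases hQc : ∀ a ∈ Q, ∀ b ∈ Q, a * b = b * a
  · -- the abelian case
    obtain ⟨Q', hQ'Q, hmin'⟩ := MinGroup.exists_isMinFor y y Q hyQ hmin.ne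
    have hQ' : IsPGroup q Q' := hQ.to_le hQ'Q
    have hQ'K : (Nat.card Q' : K) ≠ 0 := card_ne_zero_of_le hQ'Q hQK
    have e : y ^ p ^ (1 - 1) = y := by simp
    have := abelian_case hpq' ρ hρ y (le_refl 1) hyord Q' hQ' hQ'K (by rwa [e])
      (fun a ha b hb => hQc a (hQ'Q ha) b (hQ'Q hb)) 2 hy2
    rw [pow_one] at this
    omega
  push Not at hQc
  obtain ⟨a₀, ha₀, b₀, hb₀, hab⟩ := hQc
  have hcentral := fun (c : G) (hc : c ∈ Q) (hcy : y * c * y⁻¹ = c) =>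
    fixed_central hmin hQ hpq' hyo hyc hyQ hc hcy
  set C₀ : Subgroup G := Q ⊓ Subgroup.centralizer ({y} : Set G) with hC₀
  have memC₀ : ∀ {c : G}, c ∈ C₀ ↔ c ∈ Q ∧ y * c * y⁻¹ = c := by
    intro c
    rw [hC₀, Subgroup.mem_inf, Subgroup.mem_centralizer_singleton_iff]
    constructor
    · rintro ⟨h1, h2⟩
      refine ⟨h1, ?_⟩
      rw [← h2]
      group
    · rintro ⟨h1, h2⟩
      refine ⟨h1, ?_⟩
      calc c * y = (y * c * y⁻¹) * y := by rw [h2]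
        _ = y * c := by group
  have hC₀Q : C₀ ≤ Q := inf_le_left
  have hC₀K : (Nat.card C₀ : K) ≠ 0 := card_ne_zero_of_le hC₀Q hQK
  set c₀ := a₀ * b₀ * a₀⁻¹ * b₀⁻¹ with hc₀
  have hc₀Q : c₀ ∈ Q := mul_mem (mul_mem (mul_mem ha₀ hb₀) (inv_mem ha₀)) (inv_mem hb₀)
  have hc₀C : c₀ ∈ C₀ := memC₀.mpr ⟨hc₀Q, comm_fixed hmin hQ ha₀ hb₀⟩
  have hab' : ρ c₀ ≠ 1 := by
    intro h1
    apply hab
    have h2 : c₀ = 1 := hρ (by rw [h1, map_one])
    have h3 : a₀ * b₀ * a₀⁻¹ = b₀ := eq_of_mul_inv_eq_one h2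
    calc a₀ * b₀ = a₀ * b₀ * a₀⁻¹ * a₀ := by group
      _ = b₀ * a₀ := by rw [h3]
  have hne0 : ¬ ∀ w ∈ (⊤ : Submodule K V), ρ c₀ w = w := by
    intro h1
    apply hab'
    ext w
    simpa using h1 w trivial
  obtain ⟨w, _, lam, hwwt, hwne⟩ := exists_wt_of_ne (ρ := ρ) (K := C₀) hC₀K (U := ⊤)
    (fun _ _ _ _ => trivial)
    (fun y' hy' z hz v _ => by
      rw [← rho_mul, ← rho_mul, hcentral y' (memC₀.mp hy').1 (memC₀.mp hy').2 z (memC₀.mp hz).1])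
    (ρ c₀) hne0
  have hw0 : w ≠ 0 := by
    rintro rfl
    simp at hwne
  -- conjugation by `F` preserves `C₀`
  have hconjC₀ : ∀ a ∈ F, ∀ c ∈ C₀, a * c * a⁻¹ ∈ C₀ := by
    intro a ha c hc
    obtain ⟨h1, h2⟩ := memC₀.mp hc
    refine memC₀.mpr ⟨hQF a ha c h1, ?_⟩
    have hay : y = a * y * a⁻¹ := by rw [hyc a ha]; group
    have e : y * (a * c * a⁻¹) * y⁻¹ = a * (y * c * y⁻¹) * a⁻¹ := by
      calc y * (a * c * a⁻¹) * y⁻¹ = (a * y * a⁻¹) * (a * c * a⁻¹) * (a * y * a⁻¹)⁻¹ := by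
            rw [← hay]
        _ = _ := by group
    rw [e, h2]
  have hFC₀ : ∀ a ∈ F, a ∈ Subgroup.normalizer (C₀ : Set G) := by
    intro a ha
    rw [Subgroup.mem_normalizer_iff]
    intro g
    refine ⟨hconjC₀ a ha g, fun hg => ?_⟩
    have := hconjC₀ a⁻¹ (inv_mem ha) _ hg
    have e : a⁻¹ * (a * g * a⁻¹) * a⁻¹⁻¹ = g := by group
    rwa [e] at this
  set U₁ := wtSpace ρ C₀ lam with hU₁
  have hwU₁ : w ∈ U₁ := hwwt
  have hU₁Q : ∀ g ∈ Q, ∀ v ∈ U₁, ρ g v ∈ U₁ := by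
    intro g hg v hv r hr
    rw [← rho_mul, hcentral r (memC₀.mp hr).1 (memC₀.mp hr).2 g hg, rho_mul, hv r hr, map_smul]
  have hyinv : ∀ {r : G}, r ∈ C₀ → y⁻¹ * r * y = r := by
    intro r hr
    have h1 := (memC₀.mp hr).2
    calc y⁻¹ * r * y = y⁻¹ * (y * r * y⁻¹) * y := by rw [h1]
      _ = r := by group
  have hU₁y : ∀ v ∈ U₁, ρ y v ∈ U₁ := by
    intro v hv r hr
    have e : ρ r (ρ y v) = ρ y (ρ (y⁻¹ * r * y) v) := by
      simp only [rho_mul, rho_mul_inv]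
    rw [e, hyinv hr, hv r hr, map_smul]
  -- `y` acts nontrivially on `U₁`
  have hnt : ∀ U : Submodule K V, (∀ g ∈ Q, ∀ v ∈ U, ρ g v ∈ U) → (∀ v ∈ U, ρ y v ∈ U) →
      (∃ v ∈ U, ρ c₀ v ≠ v) → ∃ v ∈ U, (ρ y - 1) v ∈ U ∧ (ρ y - 1) v ≠ 0 := by
    intro U hUQ hUy ⟨v, hv, hv2⟩
    by_contra hcon
    push Not at hcon
    have htriv : ∀ v ∈ U, ρ y v = v := by
      intro v hv
      have h1 := hcon v hv (U.sub_mem (hUy v hv) hv)
      exact sub_eq_zero.mp h1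
    exact hv2 (trivial_of_y_trivial hmin hQ hpq' hyo hyc hyQ ρ U hUQ htriv c₀ hc₀Q v hv)
  -- the key: elements of `F` stabilise weights on which `y - 1 ≠ 0`
  have hstab : ∀ (N : Subgroup G) (μ : G → K) (U : Submodule K V), (∀ a ∈ F, a ∈ Subgroup.normalizer (N : Set G)) →
      (∃ v ∈ U, (ρ y - 1) v ∈ U ∧ (ρ y - 1) v ≠ 0) → (∀ v ∈ U, IsWt ρ N μ v) →
      ∀ a ∈ F, a ∈ wtStab N μ := by
    intro N μ U hN ⟨v, hv, hv2, hv3⟩ hU a ha
    obtain ⟨k, hk⟩ := haord a ha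
    refine stab_of_sq_zero hp2 ρ (hN a ha) hk (hU _ hv2) hv3 ?_
    have hcomm : Commute (ρ a - 1) (ρ y - 1) := by
      have h1 : Commute (ρ a) (ρ y) := by
        show ρ a * ρ y = ρ y * ρ a
        rw [← map_mul, hyc a ha, map_mul]
      exact (h1.sub_left (Commute.one_left _)).sub_right (Commute.one_right _)
    have h2 : ((ρ a - 1) ^ 2 * (ρ y - 1)) = 0 := by
      rw [(hcomm.pow_left 2).eq]
      exact hya a ha
    have h3 := congrArg (fun f : End K V => f v) h2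
    simpa using h3
  have hlamF : ∀ a ∈ F, a ∈ wtStab C₀ lam :=
    hstab C₀ lam U₁ hFC₀ (hnt U₁ hU₁Q hU₁y ⟨w, hwU₁, hwne⟩) (fun v hv => hv)
  have hU₁F : ∀ a ∈ F, ∀ v ∈ U₁, ρ a v ∈ U₁ := by
    intro a ha v hv
    have h1 := IsWt.conj (g := a) hv (fun y' hy' => conj_inv_mem_of_norm le_rfl (hFC₀ a ha) hy')
    exact h1.congr fun y' hy' => (hlamF a ha).2 y' hy'
  -- the second level
  set R := centerOn ρ Q U₁ hU₁Q with hR
  have hRQ : R ≤ Q := fun g hg => hg.1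
  have hRK : (Nat.card R : K) ≠ 0 := card_ne_zero_of_le hRQ hQK
  have hFR : ∀ a ∈ F, a ∈ Subgroup.normalizer (R : Set G) := fun a ha =>
    mem_normalizer_centerOn (hQF a ha) (hU₁F a ha)
  obtain ⟨w', hw'U, μ, hw'wt, hw'ne⟩ := exists_wt_of_ne (ρ := ρ) (K := R) hRK (U := U₁)
    (fun y hy v hv => hU₁Q y (hRQ hy) v hv)
    (fun y hy z hz v hv => hy.2 z (hRQ hz) v hv)
    (0 : End K V) (by
      intro h
      apply hw0
      exact (h w hwU₁).symm)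
  have hw'0 : w' ≠ 0 := by
    intro h
    apply hw'ne
    rw [h]
    simp
  set U₂ := U₁ ⊓ wtSpace ρ R μ with hU₂
  have hw'U₂ : w' ∈ U₂ := Submodule.mem_inf.mpr ⟨hw'U, hw'wt⟩
  have hU₂Q : ∀ g ∈ Q, ∀ v ∈ U₂, ρ g v ∈ U₂ := by
    intro g hg v hv
    obtain ⟨hv1, hv2⟩ := Submodule.mem_inf.mp hv
    refine Submodule.mem_inf.mpr ⟨hU₁Q g hg v hv1, ?_⟩
    intro r hr
    rw [hr.2 g hg v hv1, hv2 r hr, map_smul]
  have hsU₁ : ∀ v ∈ U₁, ((ρ y - 1) ^ 2 : End K V) v = 0 := by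
    intro v _
    rw [hy2]
    rfl
  have hyμ : y ∈ wtStab R μ :=
    stab_of_small ρ hyo (hFR y hyF') μ U₁ hU₁y (by omega) hsU₁ hw'U₂ hw'0
  have hU₂y : ∀ v ∈ U₂, ρ y v ∈ U₂ := by
    intro v hv
    obtain ⟨hv1, hv2⟩ := Submodule.mem_inf.mp hv
    refine Submodule.mem_inf.mpr ⟨hU₁y v hv1, ?_⟩
    have h1 := IsWt.conj (g := y) hv2 (fun y' hy' => conj_inv_mem_of_norm le_rfl (hFR y hyF') hy')
    exact h1.congr fun y' hy' => hyμ.2 y' hy'
  have hc₀w' : ρ c₀ w' ≠ w' := by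
    have h1 := (Submodule.mem_inf.mp hw'U₂).1 c₀ hc₀C
    rw [h1]
    intro h2
    apply hwne
    have h3 : (lam c₀ - 1) • w' = 0 := by rw [sub_smul, one_smul, h2, sub_self]
    have h4 : lam c₀ = 1 := sub_eq_zero.mp ((smul_eq_zero.mp h3).resolve_right hw'0)
    rw [hwwt c₀ hc₀C, h4, one_smul]
  have hμF : ∀ a ∈ F, a ∈ wtStab R μ :=
    hstab R μ U₂ hFR (hnt U₂ hU₂Q hU₂y ⟨w', hw'U₂, hc₀w'⟩) (fun v hv => (Submodule.mem_inf.mp hv).2)
  -- Heisenberg structure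
  have hscal : ∀ u ∈ Q, ∀ g ∈ Q, ∃ t : K, ∀ v ∈ U₁, ρ (u * g * u⁻¹ * g⁻¹) v = t • v := by
    intro u hu g hg
    have hz : u * g * u⁻¹ * g⁻¹ ∈ C₀ :=
      memC₀.mpr ⟨mul_mem (mul_mem (mul_mem hu hg) (inv_mem hu)) (inv_mem hg), comm_fixed hmin hQ hu hg⟩
    exact ⟨lam _, fun v hv => hv _ hz⟩
  set C : Subgroup Q := R.subgroupOf Q with hC
  have hH : IsHeis (qRep ρ Q U₂ hU₂Q) C :=
    isHeis_centerOn ρ Q U₁ hU₁Q μ U₂ hU₂ hU₂Q hscal hw'U₂ hw'0
  have hU₂0 : U₂ ≠ ⊥ := by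
    intro h
    rw [h, Submodule.mem_bot] at hw'U₂
    exact hw'0 hw'U₂
  haveI : Fintype Q := Fintype.ofFinite _
  haveI : Nontrivial U₂ := Submodule.nontrivial_iff_ne_bot.mpr hU₂0
  haveI hCn : C.Normal := hH.normal
  have ha₀R : a₀ ∉ R := by
    intro h1
    apply hc₀w'
    have h2 := h1.2 b₀ hb₀ (ρ (a₀⁻¹ * b₀⁻¹) w') (hU₁Q _ (mul_mem (inv_mem ha₀) (inv_mem hb₀)) w' hw'U)
    have e : ρ c₀ w' = ρ a₀ (ρ b₀ (ρ (a₀⁻¹ * b₀⁻¹) w')) := by
      simp only [hc₀, rho_mul]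
    rw [e, h2]
    simp only [rho_mul, rho_mul_inv]
  have hCtop : C ≠ ⊤ := by
    intro htop
    have h1 : (⟨a₀, ha₀⟩ : Q) ∈ C := by rw [htop]; trivial
    exact ha₀R h1
  have hinvC : ∀ (a : G) (ha : a ∈ F) (c' : Q), conjAutOf Q a (hQF a ha) c' ∈ C ↔ c' ∈ C := by
    intro a ha c'
    have h1 := Subgroup.mem_normalizer_iff.mp (hFR a ha) (c' : G)
    exact h1.symm
  have hCy : ∀ c' : Q, (y ^ p ^ (1 - 1)) * (c' : G) * (y ^ p ^ (1 - 1))⁻¹ = c' → c' ∈ C := by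
    intro c' hc'
    have e : y ^ p ^ (1 - 1) = y := by simp
    rw [e] at hc'
    have hmem : (c' : G) ∈ C₀ := memC₀.mpr ⟨c'.2, hc'⟩
    refine ⟨c'.2, fun h hh v hv => ?_⟩
    have h5 := hcentral c' c'.2 hc' h hh
    calc ρ (c' : G) (ρ h v) = ρ ((c' : G) * h) v := (rho_mul ρ _ _ _).symm
      _ = ρ (h * (c' : G)) v := by rw [h5]
      _ = ρ h (ρ (c' : G) v) := rho_mul ρ _ _ _
  have hs₂ : ∀ v ∈ U₂, ((ρ y - 1) ^ 2 : End K V) v = 0 := by
    intro v _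
    rw [hy2]
    rfl
  rcases level3 ρ y (le_refl 1) hyord Q hQK hyQ U₂ hU₂0 hU₂y hU₂Q C hH hCtop (hinvC y hyF') hCy 2 hs₂ with
    h1 | ⟨h0, D, hD1, hD2, _⟩
  · rw [pow_one] at h1
    omega
  -- `p = 3` and `|Q / R| = 4`
  have hDval : D = 2 := by
    rw [pow_one] at hD1
    rw [pow_one] at h0
    omega
  have hcard : Nat.card (Q ⧸ C) = 4 := by
    rw [← hD2, hDval]
  obtain ⟨φ, hφ⟩ := exists_quot_action F Q C hQF hinvC
  have hφy := trivial_on_four F hF hp2 hcard φ hyF hyF'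
  -- hence `Q ≤ R`
  have hle : Q ≤ R := by
    rw [← closure_eq hmin hQ hpq' hyo hyc hyQ, Subgroup.closure_le]
    rintro _ ⟨g, hg, rfl⟩
    have h1 := hφ ⟨y, hyF'⟩ ⟨g, hg⟩
    rw [hφy, Equiv.Perm.one_apply] at h1
    have h2 := QuotientGroup.eq.mp h1
    exact h2
  exact ha₀R (hle ha₀)

end Cfsg.Agent.Lib.HallHigman.LemmaD
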