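import Mathlib
import Cfsg.Agent.Lib.HallHigman.LemmaD

/-!
# `p`-length at most the derived length of a Sylow `p`-subgroup, `p` odd
-/

set_option autoImplicit false
set_option linter.unusedSectionVars false

namespace Cfsg.Agent.Lib.HallHigman.DerivedLength

open Module Cfsg Cfsg.Agent.Lib.Solvable.PSeries Cfsg.Agent.Lib.Basic.PCore
open Cfsg.Agent.Lib.HallHigman.Layer Cfsg.Agent.Lib.HallHigman.LemmaD
open scoped commutatorElement

universe u

section Series

variable {G : Type*} [Group G] {H : Type*} [Group H]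

/-- The derived series of a subgroup, inside the ambient group. -/
def dS (Q : Subgroup G) : ℕ → Subgroup G
  | 0 => Q
  | n + 1 => ⁅dS Q n, dS Q n⁆

@[simp] theorem dS_zero (Q : Subgroup G) : dS Q 0 = Q := rfl

theorem dS_succ (Q : Subgroup G) (n : ℕ) : dS Q (n + 1) = ⁅dS Q n, dS Q n⁆ := rfl

theorem map_dS (f : G →* H) (Q : Subgroup G) (n : ℕ) : (dS Q n).map f = dS (Q.map f) n := by
  induction n with
  | zero => rfl
  | succ n ih => rw [dS_succ, dS_succ, Subgroup.map_commutator, ih]

theorem map_subtype_derivedSeries (Q : Subgroup G) (n : ℕ) :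
    (derivedSeries Q n).map Q.subtype = dS Q n := by
  induction n with
  | zero =>
    rw [derivedSeries_zero, ← MonoidHom.range_eq_map, Subgroup.range_subtype]
    rfl
  | succ n ih => rw [derivedSeries_succ, dS_succ, Subgroup.map_commutator, ih]

theorem dS_succ_le (Q : Subgroup G) (n : ℕ) : dS Q (n + 1) ≤ dS Q n := by
  rw [dS_succ, Subgroup.commutator_le]
  intro g hg k hk
  rw [commutatorElement_def]
  exact mul_mem (mul_mem (mul_mem hg hk) (inv_mem hg)) (inv_mem hk)

theorem dS_le (Q : Subgroup G) (n : ℕ) : dS Q n ≤ Q := by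
  induction n with
  | zero => exact le_rfl
  | succ n ih => exact (dS_succ_le Q n).trans ih

theorem dS_conj (Q : Subgroup G) (n : ℕ) {g : G} (hg : g ∈ Q) {x : G} (hx : x ∈ dS Q n) :
    g * x * g⁻¹ ∈ dS Q n := by
  have key : ∀ n, (dS Q n).map (MulAut.conj g).toMonoidHom ≤ dS Q n := by
    intro n
    induction n with
    | zero =>
      rintro _ ⟨t, ht, rfl⟩
      exact mul_mem (mul_mem hg ht) (inv_mem hg)
    | succ n ih =>
      rw [dS_succ, Subgroup.map_commutator]
      exact Subgroup.commutator_mono ih ih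
  exact key n ⟨x, hx, rfl⟩

end Series

variable {G : Type u} [Group G] [Finite G] {p : ℕ} [hp : Fact p.Prime]

/-- Lemma D over any field of characteristic `p`. -/
theorem lemma_d_field {F : Type*} [Field F] [CharP F p] {V : Type*} [AddCommGroup V] [Module F V]
    [FiniteDimensional F V] (hp2 : p ≠ 2) (ρ : G →* End F V)
    (hρ : Function.Injective ρ) (hsol : IsPSolvable p G) (hOp : pCore p G = ⊥) (A : Subgroup G)
    (hA : IsPGroup p A) (y : G) (hyF : y ∈ ⁅A, A⁆) (hyc : ∀ a ∈ A, a * y = y * a) (hy1 : y ≠ 1)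
    (hyo : y ^ p = 1) (hy2 : (ρ y - 1) ^ 2 = 0) (hya : ∀ a ∈ A, (ρ y - 1) * (ρ a - 1) ^ 2 = 0) :
    False := by
  classical
  haveI : CharP (AlgebraicClosure F) p := inferInstance
  let K := AlgebraicClosure F
  let W := TensorProduct F K V
  let ρ' : G →* End K W := ((Module.End.baseChangeHom F K V).toMonoidHom).comp ρ
  have hρ' : Function.Injective ρ' := by
    intro a b hab
    apply hρ
    exact LinearMap.baseChangeHom_injective F V K hab
  have e : ∀ g, ρ' g - 1 = Module.End.baseChangeHom F K V (ρ g - 1) := by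
    intro g
    rw [map_sub, map_one]
    rfl
  refine lemma_d (K := K) hp2 ρ' hρ' hsol hOp A hA y hyF hyc hy1 hyo ?_ ?_
  · rw [e, ← map_pow, hy2, map_zero]
  · intro a ha
    rw [e, e, ← map_pow, ← map_mul, hya a ha, map_zero]

/-- The last term of the derived series of a Sylow subgroup lies in `O_p`. -/
theorem derived_last_le_pCore (hp2 : p ≠ 2) (hsol : IsPSolvable p G) (hcore : pPrimeCore p G = ⊥)
    (Q : Sylow p G) (d : ℕ) (hd : dS (Q : Subgroup G) (d + 1) = ⊥) :
    dS (Q : Subgroup G) d ≤ pCore p G := by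
  classical
  have hBQ : pCore p G ≤ Q := pCore_le_sylow Q
  cases d with
  | zero =>
    intro x hx
    apply centralizer_pCore_le hsol hcore
    rw [Subgroup.mem_centralizer_iff]
    intro u hu
    have h1 : ⁅u, x⁆ ∈ dS (Q : Subgroup G) 1 := Subgroup.commutator_mem_commutator (hBQ hu) hx
    rw [hd, Subgroup.mem_bot] at h1
    exact commutatorElement_eq_one_iff_mul_comm.mp h1
  | succ k =>
    set F := dS (Q : Subgroup G) k with hF
    set E := dS (Q : Subgroup G) (k + 1) with hE
    have hEF : E = ⁅F, F⁆ := rfl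
    have hEE : ⁅E, E⁆ = ⊥ := hd
    have hFQ : F ≤ Q := dS_le _ k
    have hEQ : E ≤ Q := dS_le _ (k + 1)
    by_contra hnot
    set B := pCore p G with hB
    haveI hBn : B.Normal := pCore_normal p G
    let π₂ : G →* G ⧸ B := QuotientGroup.mk' B
    set Fb := F.map π₂ with hFb
    have hFbp : IsPGroup p Fb := (Q.isPGroup'.to_le hFQ).map _
    have hEb : ⁅Fb, Fb⁆ = E.map π₂ := by
      rw [hFb, ← Subgroup.map_commutator, hEF]
    have hEbne : ⁅Fb, Fb⁆ ≠ ⊥ := by
      rw [hEb]
      intro h
      apply hnot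
      intro x hx
      have h1 : π₂ x ∈ E.map π₂ := ⟨x, hx, rfl⟩
      rw [h, Subgroup.mem_bot] at h1
      exact (QuotientGroup.eq_one_iff _).mp h1
    -- an element of order `p` in `Fb' ∩ Z(Fb)`
    have hN0 : commutator Fb ≠ ⊥ := by
      intro h
      apply hEbne
      have h2 : (commutator Fb).map Fb.subtype = ⁅Fb, Fb⁆ := by
        rw [commutator_def, Subgroup.map_commutator, ← MonoidHom.range_eq_map, Subgroup.range_subtype]
      rw [← h2, h, Subgroup.map_bot]
    have hL := Cfsg.Agent.Lib.Basic.SylowUtil.inf_center_ne_bot_of_isPGroup hFbp hN0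
    set L := commutator Fb ⊓ Subgroup.center Fb with hLdef
    have hLp : IsPGroup p L := hFbp.to_subgroup L
    obtain ⟨j, hj⟩ := IsPGroup.iff_card.mp hLp
    have hj0 : j ≠ 0 := by
      rintro rfl
      rw [pow_zero] at hj
      exact hL (Subgroup.eq_bot_of_card_eq L hj)
    have hpd : p ∣ Nat.card L := by
      rw [hj]
      exact dvd_pow_self p hj0
    obtain ⟨z, hz⟩ := exists_prime_orderOf_dvd_card' p hpd
    set y : G ⧸ B := ((z : Fb) : G ⧸ B) with hy
    have hyord : orderOf y = p := by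
      rw [hy, Subgroup.orderOf_coe, Subgroup.orderOf_coe, hz]
    have hyo : y ^ p = 1 := by
      rw [← hyord]
      exact pow_orderOf_eq_one y
    have hy1 : y ≠ 1 := by
      intro h
      rw [h, orderOf_one] at hyord
      exact hp.out.ne_one hyord.symm
    have hyF : y ∈ ⁅Fb, Fb⁆ := by
      have h2 : (commutator Fb).map Fb.subtype = ⁅Fb, Fb⁆ := by
        rw [commutator_def, Subgroup.map_commutator, ← MonoidHom.range_eq_map, Subgroup.range_subtype]
      rw [← h2]
      exact ⟨z, z.2.1, rfl⟩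
    have hyc : ∀ a ∈ Fb, a * y = y * a := by
      intro a ha
      have h1 := (Subgroup.mem_center_iff.mp z.2.2) ⟨a, ha⟩
      exact congrArg Subtype.val h1
    -- the layer
    obtain ⟨V, _, _, hfinV, ρ, π, hπ, hρ, hact⟩ := exists_layer hsol hcore
    haveI : Module.Finite (ZMod p) V := Module.Finite.of_finite
    -- the commutator on the layer
    have hcomm : ∀ (g : G) (u : B), (ρ (g : G ⧸ B) - 1) (Multiplicative.toAdd (π u)) =
        Multiplicative.toAdd (π (MulAut.conjNormal g u * u⁻¹)) := by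
      intro g u
      rw [map_mul, map_inv, toAdd_mul, toAdd_inv, hact]
      simp [sub_eq_add_neg]
      rfl
    have hsurj : ∀ v : V, ∃ u : B, v = Multiplicative.toAdd (π u) := by
      intro v
      obtain ⟨u, hu⟩ := hπ (Multiplicative.ofAdd v)
      exact ⟨u, by rw [hu]; rfl⟩
    have hconjcoe : ∀ (g : G) (u : B), ((MulAut.conjNormal g u * u⁻¹ : B) : G) = g * u * g⁻¹ * (u : G)⁻¹ := by
      intro g u
      simp [MulAut.conjNormal_apply]
    have hEcomm : ∀ x ∈ E, ∀ e ∈ E, x * e = e * x := by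
      intro x hx e he
      have h1 : ⁅x, e⁆ ∈ ⁅E, E⁆ := Subgroup.commutator_mem_commutator hx he
      rw [hEE, Subgroup.mem_bot] at h1
      exact commutatorElement_eq_one_iff_mul_comm.mp h1
    -- first identity
    have hconjE : ∀ (x : G), x ∈ E → ∀ u : B, ((MulAut.conjNormal x u * u⁻¹ : B) : G) ∈ E := by
      intro x hx u
      rw [hconjcoe]
      have e : x * u * x⁻¹ * (u : G)⁻¹ = x * ((u : G) * x⁻¹ * (u : G)⁻¹) := by group
      rw [e]
      exact mul_mem hx (dS_conj _ _ (hBQ u.2) (inv_mem hx))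
    have hkill : ∀ x ∈ E, ∀ u : B, (u : G) ∈ E → MulAut.conjNormal x u * u⁻¹ = 1 := by
      intro x hx u hu
      apply Subtype.ext
      rw [hconjcoe]
      have h1 := hEcomm x hx u hu
      rw [h1]
      simp
    have hy2' : ∀ x ∈ E, (ρ (x : G ⧸ B) - 1) ^ 2 = 0 := by
      intro x hx
      ext v
      obtain ⟨u, rfl⟩ := hsurj v
      rw [pow_two, Module.End.mul_apply, hcomm, hcomm, hkill x hx _ (hconjE x hx u), map_one]
      rfl
    have hya' : ∀ x ∈ E, ∀ a ∈ F, (ρ (x : G ⧸ B) - 1) * (ρ (a : G ⧸ B) - 1) ^ 2 = 0 := by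
      intro x hx a ha
      ext v
      obtain ⟨u, rfl⟩ := hsurj v
      rw [pow_two, Module.End.mul_apply, Module.End.mul_apply, hcomm, hcomm, hcomm]
      -- `[a, u] ∈ F`, `[a, [a, u]] ∈ E`
      have h1 : ((MulAut.conjNormal a u * u⁻¹ : B) : G) ∈ F := by
        rw [hconjcoe]
        have e : a * u * a⁻¹ * (u : G)⁻¹ = a * ((u : G) * a⁻¹ * (u : G)⁻¹) := by group
        rw [e]
        exact mul_mem ha (dS_conj _ _ (hBQ u.2) (inv_mem ha))
      have h2 : ((MulAut.conjNormal a (MulAut.conjNormal a u * u⁻¹) * (MulAut.conjNormal a u * u⁻¹)⁻¹ : B) : G) ∈ E := by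
        rw [hconjcoe, hEF]
        exact Subgroup.commutator_mem_commutator ha h1
      rw [hkill x hx _ h2, map_one]
      rfl
    refine lemma_d_field (F := ZMod p) hp2 ρ hρ (isPSolvable_quotient hsol B) pCore_quotient_eq_bot Fb hFbp y hyF hyc
      hy1 hyo ?_ ?_
    · rw [hEb] at hyF
      obtain ⟨x, hx, hxy⟩ := hyF
      rw [← hxy]
      exact hy2' x hx
    · rintro _ ⟨a, ha, rfl⟩
      rw [hEb] at hyF
      obtain ⟨x, hx, hxy⟩ := hyF
      rw [← hxy]
      exact hya' x hx a ha

/-- **`p`-length at most the derived length of a Sylow subgroup**, `p` odd. -/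
theorem plength_le_derived (hp2 : p ≠ 2) : ∀ (d : ℕ) (G : Type u) [Group G] [Finite G], IsPSolvable p G →
    (∀ P : Sylow p G, dS (P : Subgroup G) d = ⊥) → PLengthLE p d G := by
  intro d
  induction d with
  | zero =>
    intro G _ _ _ hd
    rw [pLengthLE_zero_iff]
    by_contra hcop
    have hdv : p ∣ Nat.card G := by
      rw [Nat.coprime_comm] at hcop
      exact not_not.1 ((Nat.Prime.coprime_iff_not_dvd hp.out).not.1 hcop)
    obtain ⟨x, hx⟩ := exists_prime_orderOf_dvd_card' p hdv
    have h1 : IsPGroup p (Subgroup.zpowers x) := by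
      apply IsPGroup.of_card (n := 1)
      rw [Nat.card_zpowers, hx, pow_one]
    obtain ⟨P, hP⟩ := h1.exists_le_sylow
    have h2 : x ∈ (P : Subgroup G) := hP (Subgroup.mem_zpowers x)
    have h3 := hd P
    rw [dS_zero] at h3
    rw [h3, Subgroup.mem_bot] at h2
    rw [h2, orderOf_one] at hx
    exact hp.out.ne_one hx.symm
  | succ d ih =>
    intro G _ _ hsol hd
    apply pLengthLE_succ_of_layer
    have hcore := pPrimeCore_quotient (G := G) p
    have hsol₁ := isPSolvable_quotient hsol (pPrimeCore p G)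
    apply ih _ (isPSolvable_quotient hsol₁ _)
    intro P₂
    have hπ₁ : Function.Surjective (QuotientGroup.mk' (pPrimeCore p G)) := QuotientGroup.mk'_surjective _
    have hπ₂ : Function.Surjective (QuotientGroup.mk' (pCore p (G ⧸ pPrimeCore p G))) :=
      QuotientGroup.mk'_surjective _
    obtain ⟨P₁, rfl⟩ := Sylow.mapSurjective_surjective hπ₂ p P₂
    obtain ⟨P, rfl⟩ := Sylow.mapSurjective_surjective hπ₁ p P₁
    rw [Sylow.coe_mapSurjective, ← map_dS]
    have h1 : dS (↑(Sylow.mapSurjective hπ₁ P) : Subgroup (G ⧸ pPrimeCore p G)) (d + 1) = ⊥ := by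
      rw [Sylow.coe_mapSurjective, ← map_dS, hd P, Subgroup.map_bot]
    have h2 := derived_last_le_pCore hp2 hsol₁ hcore _ d h1
    rw [eq_bot_iff]
    rintro _ ⟨x, hx, rfl⟩
    rw [Subgroup.mem_bot]
    exact (QuotientGroup.eq_one_iff _).mpr (h2 hx)

end Cfsg.Agent.Lib.HallHigman.DerivedLength
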