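import Mathlib
import Cfsg.Prelude.Def_LocalEven
import Cfsg.Agent.Lib.HallHigman.Layer
import Cfsg.Agent.Lib.HallHigman.Block
import Cfsg.Agent.Lib.HallHigman.Reduce
import Cfsg.Agent.Lib.Basic.SylowUtil

/-!
# A wreath section from a free summand of the layer

If `x̄` of order `p` in `G / O_{p',p}(G)` has `(x̄ - 1) ^ (p - 1) ≠ 0` on `O_p/Φ(O_p)`, a Sylow
`p`-subgroup has a section isomorphic to `C_p ≀ C_p`.
-/

set_option autoImplicit false
set_option linter.unusedSectionVars false

namespace Cfsg.Agent.Lib.HallHigman.Wreath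

open Cfsg Module Cfsg.Agent.Lib.HallHigman.Layer Cfsg.Agent.Lib.Solvable.PSeries
  Cfsg.Agent.Lib.Basic.PCore

/-- The conditions defining `C_p ≀ C_p`, in the form of the statement S3787. -/
def IsWr (p : ℕ) (W : Type*) [Group W] : Prop :=
  ∃ (B : Subgroup W) (t : W), B.Normal ∧ IsMulCommutative B ∧ (∀ b ∈ B, b ^ p = 1) ∧
    Nat.card B = p ^ p ∧ orderOf t = p ∧ t ∉ B ∧ Nat.card W = p ^ (p + 1) ∧
    Nat.card ↥(B ⊓ Subgroup.centralizer ({t} : Set W)) = p

theorem IsWr.of_mulEquiv {p : ℕ} {X W : Type*} [Group X] [Group W] (e : X ≃* W) (h : IsWr p X) :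
    IsWr p W := by
  obtain ⟨B, t, h1, h2, h3, h4, h5, h6, h7, h8⟩ := h
  refine ⟨B.map e.toMonoidHom, e t, h1.map _ e.surjective, ?_, ?_, ?_, ?_, ?_, ?_, ?_⟩
  · refine ⟨⟨?_⟩⟩
    rintro ⟨_, a, ha, rfl⟩ ⟨_, b, hb, rfl⟩
    apply Subtype.ext
    have := h2.is_comm.comm ⟨a, ha⟩ ⟨b, hb⟩
    have h9 : a * b = b * a := congrArg Subtype.val this
    show e a * e b = e b * e a
    rw [← map_mul, h9, map_mul]
  · rintro _ ⟨b, hb, rfl⟩
    show (e b) ^ p = 1
    rw [← map_pow, h3 b hb, map_one]
  · rw [← h4]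
    exact Nat.card_congr (e.subgroupMap B).toEquiv.symm
  · rw [MulEquiv.orderOf_eq, h5]
  · rintro ⟨b, hb, hbe⟩
    have : b = t := e.injective hbe
    exact h6 (this ▸ hb)
  · rw [← h7]
    exact Nat.card_congr e.toEquiv.symm
  · rw [← h8]
    have h9 : B.map e.toMonoidHom ⊓ Subgroup.centralizer ({e t} : Set W) =
        (B ⊓ Subgroup.centralizer ({t} : Set X)).map e.toMonoidHom := by
      ext w
      simp only [Subgroup.mem_inf, Subgroup.mem_map, Subgroup.mem_centralizer_singleton_iff]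
      constructor
      · rintro ⟨⟨b, hb, rfl⟩, h10⟩
        refine ⟨b, ⟨hb, ?_⟩, rfl⟩
        apply e.injective
        simpa using h10
      · rintro ⟨b, ⟨hb, h10⟩, rfl⟩
        refine ⟨⟨b, hb, rfl⟩, ?_⟩
        have := congrArg e h10
        simpa using this
    rw [h9]
    exact Nat.card_congr (e.subgroupMap _).toEquiv.symm

/-- A bare type with `n` elements. -/
def SmallCopy (n : ℕ) : Type := Fin n

instance (n : ℕ) : Finite (SmallCopy n) := inferInstanceAs (Finite (Fin n))

/-- A copy in `Type`. -/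
theorem exists_small_copy (X : Type*) [Group X] [Finite X] :
    ∃ (W : Type) (_ : Group W) (_ : Finite W), Nonempty (X ≃* W) := by
  let e : SmallCopy (Nat.card X) ≃ X := (Finite.equivFin X).symm
  letI : Group (SmallCopy (Nat.card X)) := e.group
  exact ⟨SmallCopy (Nat.card X), inferInstance, inferInstance, ⟨(e.mulEquiv).symm⟩⟩

variable {p : ℕ} [hp : Fact p.Prime]

/-- The abstract wreath section. -/
theorem isWr_quotient {L : Type*} [Group L] [Finite L] (B : Subgroup L) [hBn : B.Normal]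
    (hidx : B.index = p) {E : Type*} [AddCommGroup E] [Module (ZMod p) E] [Finite E]
    (T : End (ZMod p) E) (hT : Function.Injective T)
    (ψ : B →* Multiplicative E) (hψ : Function.Surjective ψ) (x : L) (hx : x ∉ B)
    (hrel : ∀ u : B, Multiplicative.toAdd (ψ (MulAut.conjNormal x u)) = T (Multiplicative.toAdd (ψ u)))
    (hcard : Nat.card E = p ^ p) (hker : Nat.card (LinearMap.ker (T - 1)) = p)
    (himg : ∀ w, (T - 1) w = 0 → ∃ w', ((T - 1) ^ (p - 1)) w' = w) :
    ∃ (R : Subgroup L) (_ : R.Normal), IsWr p (L ⧸ R) := by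
  classical
  set R : Subgroup L := ψ.ker.map B.subtype with hR
  have memR : ∀ b : B, (b : L) ∈ R ↔ ψ b = 1 := by
    intro b
    constructor
    · rintro ⟨c, hc, hcb⟩
      have : c = b := Subtype.ext hcb
      rw [← this]
      exact hc
    · intro h
      exact ⟨b, h, rfl⟩
  have hRB : R ≤ B := Subgroup.map_subtype_le _
  have hpp : p.Prime := hp.out
  -- the shape of elements
  have hcardq : Nat.card (L ⧸ B) = p := hidx
  have hxbar : (x : L ⧸ B) ≠ 1 := by
    intro h
    exact hx ((QuotientGroup.eq_one_iff x).mp h)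
  have hall : ∀ g : L, ∃ k : ℤ, ∃ b ∈ B, g = x ^ k * b := by
    intro g
    haveI : Fact (Nat.Prime (Nat.card (L ⧸ B))) := by rw [hcardq]; exact hp
    have h1 := mem_zpowers_of_prime_card hcardq (g := (x : L ⧸ B)) (g' := (g : L ⧸ B)) hxbar
    obtain ⟨k, hk⟩ := Subgroup.mem_zpowers_iff.mp h1
    refine ⟨k, (x ^ k)⁻¹ * g, ?_, by group⟩
    apply QuotientGroup.eq.mp
    rw [← hk, QuotientGroup.mk_zpow]
  have hxp : x ^ p ∈ B := by
    apply (QuotientGroup.eq_one_iff _).mp
    rw [QuotientGroup.mk_pow, ← hcardq]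
    exact pow_card_eq_one'
  -- `ψ` is a class function on `B`
  have hψconjB : ∀ b c : B, ψ (c * b * c⁻¹) = ψ b := by
    intro b c
    rw [map_mul, map_mul, map_inv, mul_comm (ψ c), mul_inv_cancel_right]
  -- conjugation by the inverse of `x`
  have hconjinv : ∀ u : B, T (Multiplicative.toAdd (ψ (MulAut.conjNormal x⁻¹ u))) =
      Multiplicative.toAdd (ψ u) := by
    intro u
    rw [← hrel]
    congr 2
    apply Subtype.ext
    simp [MulAut.conjNormal_apply]
  have hRn : R.Normal := by
    constructor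
    intro h hh g
    obtain ⟨k, b, hb, rfl⟩ := hall g
    have hxinv : ∀ r ∈ R, x * r * x⁻¹ ∈ R ∧ x⁻¹ * r * x ∈ R := by
      intro r hr
      have hrB := hRB hr
      have h0 : ψ ⟨r, hrB⟩ = 1 := (memR ⟨r, hrB⟩).mp hr
      constructor
      · refine (memR (MulAut.conjNormal x ⟨r, hrB⟩)).mpr ?_
        have := hrel ⟨r, hrB⟩
        rw [h0] at this
        simpa using this
      · have h1 := hconjinv ⟨r, hrB⟩
        rw [h0] at h1
        have h2 : Multiplicative.toAdd (ψ (MulAut.conjNormal x⁻¹ ⟨r, hrB⟩)) = 0 := by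
          apply hT
          rw [h1, map_zero]
          rfl
        have := (memR (MulAut.conjNormal x⁻¹ ⟨r, hrB⟩)).mpr h2
        simpa [MulAut.conjNormal_apply] using this
    have hzpow : ∀ (k : ℤ), ∀ r ∈ R, x ^ k * r * (x ^ k)⁻¹ ∈ R := by
      intro k
      induction k using Int.induction_on with
      | zero => intro r hr; simpa using hr
      | succ i ih =>
        intro r hr
        have h1 := (hxinv _ (ih r hr)).1
        have e : x ^ ((i : ℤ) + 1) * r * (x ^ ((i : ℤ) + 1))⁻¹ = x * (x ^ (i : ℤ) * r * (x ^ (i : ℤ))⁻¹) * x⁻¹ := by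
          group
        rw [e]
        exact h1
      | pred i ih =>
        intro r hr
        have h1 := (hxinv _ (ih r hr)).2
        have e : x ^ (-(i : ℤ) - 1) * r * (x ^ (-(i : ℤ) - 1))⁻¹ = x⁻¹ * (x ^ (-(i : ℤ)) * r * (x ^ (-(i : ℤ)))⁻¹) * x := by
          group
        rw [e]
        exact h1
    have h2 : b * h * b⁻¹ ∈ R := by
      have hhB := hRB hh
      have h0 := (memR ⟨h, hhB⟩).mp hh
      have h3 := hψconjB ⟨h, hhB⟩ ⟨b, hb⟩
      rw [h0] at h3
      exact (memR _).mpr h3
    have e : x ^ k * b * h * (x ^ k * b)⁻¹ = x ^ k * (b * h * b⁻¹) * (x ^ k)⁻¹ := by group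
    rw [e]
    exact hzpow k _ h2
  refine ⟨R, hRn, ?_⟩
  -- the element `t`
  have hcoc : ∀ u : B, ∀ k : ℕ, ∃ c : B, (x⁻¹ * (u : L)) ^ k = x⁻¹ ^ k * (c : L) ∧
      Multiplicative.toAdd (ψ c) = ∑ i ∈ Finset.range k, (T ^ i) (Multiplicative.toAdd (ψ u)) := by
    intro u k
    induction k with
    | zero =>
      refine ⟨1, by simp, by simp⟩
    | succ k ih =>
      obtain ⟨c, hc1, hc2⟩ := ih
      refine ⟨MulAut.conjNormal x c * u, ?_, ?_⟩
      · rw [pow_succ, hc1, pow_succ]
        simp only [Subgroup.coe_mul, MulAut.conjNormal_apply]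
        group
      · rw [map_mul, toAdd_mul, hrel, hc2, map_sum, Finset.sum_range_succ']
        simp only [pow_succ', pow_zero, Module.End.one_apply, Module.End.mul_apply]
  have hTp : ∀ w : E, ∑ i ∈ Finset.range p, (T ^ i) w = ((T - 1) ^ (p - 1)) w := by
    intro w
    have := Cfsg.Agent.Lib.HallHigman.Block.sub_one_pow_eq_sum (p := p) T 1
    rw [pow_one] at this
    rw [this, LinearMap.sum_apply]
  set a : B := ⟨x⁻¹ ^ p, by rw [inv_pow]; exact inv_mem hxp⟩ with ha
  have hafix : (T - 1) (Multiplicative.toAdd (ψ a)) = 0 := by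
    have h1 := hrel a
    have h2 : MulAut.conjNormal x a = a := by
      apply Subtype.ext
      simp only [MulAut.conjNormal_apply, ha, inv_pow]
      have h3 : x * (x ^ p)⁻¹ = (x ^ p)⁻¹ * x := ((Commute.refl x).pow_right p).inv_right.eq
      rw [h3]
      group
    rw [h2] at h1
    rw [LinearMap.sub_apply, ← h1]
    simp
  obtain ⟨w', hw'⟩ := himg (-Multiplicative.toAdd (ψ a)) (by rw [map_neg, hafix, neg_zero])
  obtain ⟨u₀, hu₀⟩ := hψ (Multiplicative.ofAdd w')
  obtain ⟨c, hc1, hc2⟩ := hcoc u₀ p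
  set t₀ : L := x⁻¹ * (u₀ : L) with ht₀
  have ht₀p : t₀ ^ p ∈ R := by
    have h1 : t₀ ^ p = ((a * c : B) : L) := by
      rw [ht₀, hc1]
      rfl
    rw [h1, memR, map_mul]
    have h2 : Multiplicative.toAdd (ψ c) = -Multiplicative.toAdd (ψ a) := by
      rw [hc2, hTp, hu₀]
      exact hw'
    have h3 : ψ c = (ψ a)⁻¹ := by
      apply Multiplicative.toAdd.injective
      rw [h2]
      rfl
    rw [h3, mul_inv_cancel]
  have ht₀B : t₀ ∉ B := by
    intro h
    apply hx
    have h1 : x⁻¹ ∈ B := by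
      have h2 := mul_mem h (inv_mem u₀.2)
      simpa [ht₀] using h2
    simpa using inv_mem h1
  -- the quotient
  set t : L ⧸ R := (t₀ : L ⧸ R) with ht
  -- a section of `ψ`
  let σ : E → B := fun w => Function.surjInv hψ (Multiplicative.ofAdd w)
  have hσ : ∀ w, ψ (σ w) = Multiplicative.ofAdd w := fun w => Function.surjInv_eq hψ _
  have hmk : ∀ b c : B, ((b : L) : L ⧸ R) = ((c : L) : L ⧸ R) ↔ ψ b = ψ c := by
    intro b c
    rw [QuotientGroup.eq]
    have e : (b : L)⁻¹ * c = ((b⁻¹ * c : B) : L) := rfl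
    rw [e, memR, map_mul, map_inv, inv_mul_eq_one]
  let g : E → L ⧸ R := fun w => ((σ w : L) : L ⧸ R)
  have hg1 : ∀ b : B, ((b : L) : L ⧸ R) = g (Multiplicative.toAdd (ψ b)) := by
    intro b
    apply (hmk _ _).mpr
    rw [hσ]
    rfl
  have hginj : Function.Injective g := by
    intro w₁ w₂ h
    have := (hmk _ _).mp h
    rw [hσ, hσ] at this
    exact Multiplicative.ofAdd.injective this
  set Bb : Subgroup (L ⧸ R) := B.map (QuotientGroup.mk' R) with hBb
  have hgB : ∀ w, g w ∈ Bb := fun w => ⟨σ w, (σ w).2, rfl⟩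
  have hBbex : ∀ s ∈ Bb, ∃ b : B, s = ((b : L) : L ⧸ R) := by
    rintro _ ⟨b, hb, rfl⟩
    exact ⟨⟨b, hb⟩, rfl⟩
  -- commuting with `t`
  have hcomm : ∀ b : B, ((b : L) : L ⧸ R) * t = t * ((b : L) : L ⧸ R) ↔
      (T - 1) (Multiplicative.toAdd (ψ b)) = 0 := by
    intro b
    -- the conjugate of `b`
    let b₂ : B := MulAut.conjNormal x⁻¹ (u₀ * b * u₀⁻¹)
    have hb₂ : (b₂ : L) = t₀ * b * t₀⁻¹ := by
      simp [b₂, ht₀, MulAut.conjNormal_apply]
      group
    have h1 : T (Multiplicative.toAdd (ψ b₂)) = Multiplicative.toAdd (ψ b) := by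
      rw [hconjinv, hψconjB]
    have h2 : ((b : L) : L ⧸ R) * t = t * ((b : L) : L ⧸ R) ↔ ψ b₂ = ψ b := by
      rw [← hmk, hb₂, QuotientGroup.mk_mul, QuotientGroup.mk_mul, QuotientGroup.mk_inv, ← ht]
      constructor
      · intro h
        calc t * ((b : L) : L ⧸ R) * t⁻¹ = ((b : L) : L ⧸ R) * t * t⁻¹ := by rw [h]
          _ = _ := by group
      · intro h
        calc ((b : L) : L ⧸ R) * t = (t * ((b : L) : L ⧸ R) * t⁻¹) * t := by rw [h]
          _ = _ := by group
    rw [h2, LinearMap.sub_apply, Module.End.one_apply, sub_eq_zero]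
    constructor
    · intro h
      rw [h] at h1
      exact h1
    · intro h
      apply Multiplicative.toAdd.injective
      apply hT
      rw [h1, h]
  refine ⟨Bb, t, hBn.map _ (QuotientGroup.mk'_surjective R), ⟨⟨?_⟩⟩, ?_, ?_, ?_, ?_, ?_, ?_⟩
  · -- commutativity
    rintro ⟨s₁, hs₁⟩ ⟨s₂, hs₂⟩
    obtain ⟨b₁, rfl⟩ := hBbex s₁ hs₁
    obtain ⟨b₂, rfl⟩ := hBbex s₂ hs₂
    apply Subtype.ext
    show ((b₁ : L) : L ⧸ R) * ((b₂ : L) : L ⧸ R) = ((b₂ : L) : L ⧸ R) * ((b₁ : L) : L ⧸ R)
    rw [← QuotientGroup.mk_mul, ← QuotientGroup.mk_mul]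
    have e1 : (b₁ : L) * b₂ = ((b₁ * b₂ : B) : L) := rfl
    have e2 : (b₂ : L) * b₁ = ((b₂ * b₁ : B) : L) := rfl
    rw [e1, e2, hmk, map_mul, map_mul, mul_comm]
  · -- exponent
    intro s hs
    obtain ⟨b, rfl⟩ := hBbex s hs
    rw [← QuotientGroup.mk_pow]
    apply (QuotientGroup.eq_one_iff _).mpr
    have e1 : (b : L) ^ p = ((b ^ p : B) : L) := rfl
    rw [e1, memR, map_pow]
    apply Multiplicative.toAdd.injective
    rw [toAdd_pow, toAdd_one, ← Nat.cast_smul_eq_nsmul (ZMod p), ZMod.natCast_self, zero_smul]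
  · -- the order of `Bb`
    rw [← hcard]
    symm
    apply Nat.card_congr
    refine Equiv.ofBijective (fun w => (⟨g w, hgB w⟩ : Bb)) ⟨?_, ?_⟩
    · intro w₁ w₂ h
      exact hginj (congrArg Subtype.val h)
    · rintro ⟨s, hs⟩
      obtain ⟨b, rfl⟩ := hBbex s hs
      exact ⟨Multiplicative.toAdd (ψ b), Subtype.ext (hg1 b).symm⟩
  · -- the order of `t`
    apply orderOf_eq_prime
    · rw [ht, ← QuotientGroup.mk_pow]
      exact (QuotientGroup.eq_one_iff _).mpr ht₀p
    · rw [ht]
      intro h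
      exact ht₀B (hRB ((QuotientGroup.eq_one_iff _).mp h))
  · -- `t` is outside
    intro h
    obtain ⟨b, hb⟩ := hBbex t h
    have h1 : (t₀)⁻¹ * b ∈ R := QuotientGroup.eq.mp hb
    have h2 := hRB h1
    apply ht₀B
    have h3 := mul_mem b.2 (inv_mem h2)
    simpa using h3
  · -- the order of the quotient
    have h1 : Nat.card B * p = Nat.card L := by
      rw [← hidx]
      exact Subgroup.card_mul_index B
    have h2 : Nat.card ψ.ker * Nat.card E = Nat.card B := by
      have h3 := Subgroup.card_mul_index ψ.ker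
      rw [Subgroup.index_ker, MonoidHom.range_eq_top.mpr hψ, Nat.card_congr Subgroup.topEquiv.toEquiv] at h3
      exact h3
    have h3 : Nat.card R = Nat.card ψ.ker := by
      rw [hR]
      exact Nat.card_congr (Subgroup.equivMapOfInjective ψ.ker B.subtype B.subtype_injective).symm.toEquiv
    have h4 : Nat.card R * Nat.card (L ⧸ R) = Nat.card L := Subgroup.card_mul_index R
    have hpos : 0 < Nat.card R := Nat.card_pos
    apply Nat.eq_of_mul_eq_mul_left hpos
    rw [h4, ← h1, ← h2, h3, hcard]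
    ring
  · -- the fixed points
    rw [← hker]
    symm
    apply Nat.card_congr
    refine Equiv.ofBijective (fun w => (⟨g w, ?_⟩ : ↥(Bb ⊓ Subgroup.centralizer ({t} : Set (L ⧸ R))))) ⟨?_, ?_⟩
    · refine Subgroup.mem_inf.mpr ⟨hgB w, ?_⟩
      rw [Subgroup.mem_centralizer_singleton_iff]
      have h1 := hg1 (σ w)
      have h2 : Multiplicative.toAdd (ψ (σ w)) = w := by rw [hσ]; rfl
      rw [h2] at h1
      rw [show g (w : E) = ((σ w : L) : L ⧸ R) from rfl]
      refine (hcomm (σ w)).mpr ?_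
      rw [h2]
      exact w.2
    · intro w₁ w₂ h
      exact Subtype.ext (hginj (congrArg Subtype.val h))
    · rintro ⟨s, hs⟩
      obtain ⟨hs1, hs2⟩ := Subgroup.mem_inf.mp hs
      obtain ⟨b, rfl⟩ := hBbex s hs1
      rw [Subgroup.mem_centralizer_singleton_iff] at hs2
      have h1 := (hcomm b).mp hs2
      exact ⟨⟨Multiplicative.toAdd (ψ b), h1⟩, Subtype.ext (hg1 b).symm⟩

section Shift

variable (p)

/-- The shift on `Fin p → ZMod p`. -/
def shift : End (ZMod p) (Fin p → ZMod p) where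
  toFun g i := if h : (i : ℕ) + 1 < p then g ⟨i + 1, h⟩ else 0
  map_add' a b := by
    ext i
    by_cases h : (i : ℕ) + 1 < p <;> simp [h]
  map_smul' c a := by
    ext i
    by_cases h : (i : ℕ) + 1 < p <;> simp [h]

theorem shift_apply (g : Fin p → ZMod p) (i : Fin p) :
    shift p g i = if h : (i : ℕ) + 1 < p then g ⟨i + 1, h⟩ else 0 := rfl

theorem shift_pow_apply (k : ℕ) (g : Fin p → ZMod p) (i : Fin p) :
    ((shift p) ^ k) g i = if h : (i : ℕ) + k < p then g ⟨i + k, h⟩ else 0 := by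
  induction k generalizing i with
  | zero =>
    simp
  | succ k ih =>
    rw [pow_succ', Module.End.mul_apply, shift_apply]
    by_cases h : (i : ℕ) + 1 < p
    · rw [dif_pos h, ih]
      simp only
      by_cases h2 : (i : ℕ) + 1 + k < p
      · have h3 : (i : ℕ) + (k + 1) < p := by omega
        rw [dif_pos h2, dif_pos h3]
        congr 2
        omega
      · have h3 : ¬ (i : ℕ) + (k + 1) < p := by omega
        rw [dif_neg h2, dif_neg h3]
    · have h3 : ¬ (i : ℕ) + (k + 1) < p := by omega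
      rw [dif_neg h, dif_neg h3]

theorem shift_pow_eq_zero : (shift p) ^ p = 0 := by
  apply LinearMap.ext
  intro g
  funext i
  rw [shift_pow_apply, dif_neg (by omega)]
  rfl

/-- `1 + shift`. -/
def shiftT : End (ZMod p) (Fin p → ZMod p) := 1 + shift p

theorem shiftT_sub_one : shiftT p - 1 = shift p := by
  simp [shiftT]

theorem shiftT_pow : shiftT p ^ p = 1 := by
  have h := Cfsg.Agent.Lib.HallHigman.Block.sub_one_pow_char_pow (p := p) (shiftT p) 1
  rw [pow_one, shiftT_sub_one, shift_pow_eq_zero] at h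
  exact (sub_eq_zero.mp h.symm)

theorem shiftT_injective : Function.Injective (shiftT p) := by
  intro a b h
  have h1 : shiftT p ^ (p - 1) * shiftT p = 1 := by
    rw [← pow_succ, Nat.sub_add_cancel hp.out.pos, shiftT_pow]
  have h2 := congrArg (shiftT p ^ (p - 1)) h
  simp only [← Module.End.mul_apply, h1] at h2
  simpa using h2

theorem card_shift_ker : Nat.card (LinearMap.ker (shiftT p - 1)) = p := by
  rw [shiftT_sub_one]
  have hpos : 0 < p := hp.out.pos
  let i₀ : Fin p := ⟨0, hpos⟩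
  have hmem : ∀ g : Fin p → ZMod p, g ∈ LinearMap.ker (shift p) ↔ ∀ i : Fin p, i ≠ i₀ → g i = 0 := by
    intro g
    rw [LinearMap.mem_ker]
    constructor
    · intro h i hi
      have hi0 : (i : ℕ) ≠ 0 := fun h0 => hi (Fin.ext h0)
      have h1 := congrFun h ⟨i - 1, by have := i.2; omega⟩
      rw [shift_apply, dif_pos (by have := i.2; simpa using (by omega))] at h1
      have h3 : (⟨(i : ℕ) - 1 + 1, by have := i.2; omega⟩ : Fin p) = i := by
        apply Fin.ext
        simp only
        omega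
      simp only [h3] at h1
      exact h1
    · intro h
      ext i
      rw [shift_apply]
      split_ifs with h1
      · apply h
        intro h2
        have := congrArg Fin.val h2
        simp [i₀] at this
      · rfl
  have e : LinearMap.ker (shift p) ≃ ZMod p :=
    { toFun := fun g => (g : Fin p → ZMod p) i₀
      invFun := fun a => ⟨fun i => if i = i₀ then a else 0, by
        rw [hmem]
        intro i hi
        simp [hi]⟩
      left_inv := by
        rintro ⟨g, hg⟩
        apply Subtype.ext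
        ext i
        by_cases hi : i = i₀
        · subst hi
          simp
        · simp only [hi, if_false]
          exact ((hmem g).mp hg i hi).symm
      right_inv := by
        intro a
        simp }
  rw [Nat.card_congr e, Nat.card_zmod]

theorem shift_himg : ∀ w, (shiftT p - 1) w = 0 → ∃ w', ((shiftT p - 1) ^ (p - 1)) w' = w := by
  rw [shiftT_sub_one]
  intro g hg
  have hpos : 0 < p := hp.out.pos
  let i₀ : Fin p := ⟨0, hpos⟩
  let i₁ : Fin p := ⟨p - 1, by omega⟩
  refine ⟨fun i => if i = i₁ then g i₀ else 0, ?_⟩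
  ext i
  rw [shift_pow_apply]
  by_cases hi : (i : ℕ) = 0
  · have h1 : (i : ℕ) + (p - 1) < p := by omega
    rw [dif_pos h1]
    have h2 : (⟨(i : ℕ) + (p - 1), h1⟩ : Fin p) = i₁ := by
      apply Fin.ext
      simp [i₁, hi]
    have h3 : i = i₀ := Fin.ext hi
    show (if (⟨(i : ℕ) + (p - 1), h1⟩ : Fin p) = i₁ then g i₀ else 0) = g i
    rw [if_pos h2, h3]
  · have h1 : ¬ (i : ℕ) + (p - 1) < p := by omega
    rw [dif_neg h1]
    have h2 := congrFun hg ⟨i - 1, by have := i.2; omega⟩
    rw [shift_apply, dif_pos (by have := i.2; simpa using (by omega))] at h2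
    have h3 : (⟨(i : ℕ) - 1 + 1, by have := i.2; omega⟩ : Fin p) = i := by
      apply Fin.ext
      simp only
      omega
    simp only [h3] at h2
    exact h2.symm

theorem card_shift_space : Nat.card (Fin p → ZMod p) = p ^ p := by
  simp [Nat.card_fun, Nat.card_zmod]

variable {p}

/-- The map to the model space. -/
def coordMap {V : Type*} [AddCommGroup V] [Module (ZMod p) V] (f : Module.Dual (ZMod p) V)
    (N : End (ZMod p) V) : V →ₗ[ZMod p] (Fin p → ZMod p) :=
  LinearMap.pi fun i => f ∘ₗ (N ^ (i : ℕ))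

theorem coordMap_apply {V : Type*} [AddCommGroup V] [Module (ZMod p) V] (f : Module.Dual (ZMod p) V)
    (N : End (ZMod p) V) (v : V) (i : Fin p) : coordMap f N v i = f ((N ^ (i : ℕ)) v) := rfl

theorem coordMap_comp {V : Type*} [AddCommGroup V] [Module (ZMod p) V] (f : Module.Dual (ZMod p) V)
    (N : End (ZMod p) V) (hN : N ^ p = 0) (v : V) :
    coordMap f N (N v) = shift p (coordMap f N v) := by
  ext i
  rw [shift_apply, coordMap_apply]
  have e : (N ^ (i : ℕ)) (N v) = (N ^ ((i : ℕ) + 1)) v := by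
    rw [pow_succ, Module.End.mul_apply]
  rw [e]
  split_ifs with h
  · rw [coordMap_apply]
  · have h1 : (i : ℕ) + 1 = p := by have := i.2; omega
    rw [h1, hN]
    simp

theorem coordMap_surjective {V : Type*} [AddCommGroup V] [Module (ZMod p) V]
    (f : Module.Dual (ZMod p) V) (N : End (ZMod p) V) (hN : N ^ p = 0) (v₀ : V)
    (hv₀ : f ((N ^ (p - 1)) v₀) ≠ 0) : Function.Surjective (coordMap f N) := by
  classical
  set c := f ((N ^ (p - 1)) v₀) with hc
  have key : ∀ k : ℕ, ∀ g : Fin p → ZMod p, (∀ i : Fin p, k ≤ (i : ℕ) → g i = 0) →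
      ∃ v, coordMap f N v = g := by
    intro k
    induction k with
    | zero =>
      intro g hg
      refine ⟨0, ?_⟩
      ext i
      rw [map_zero, hg i (Nat.zero_le _)]
      rfl
    | succ k ih =>
      intro g hg
      by_cases hk : k < p
      · let i₀ : Fin p := ⟨k, hk⟩
        set a := g i₀ / c with ha
        set v₁ := a • (N ^ (p - 1 - k)) v₀ with hv₁
        have hval : ∀ i : Fin p, coordMap f N v₁ i =
            if (i : ℕ) + (p - 1 - k) < p then a * f ((N ^ ((i : ℕ) + (p - 1 - k))) v₀) else 0 := by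
          intro i
          rw [coordMap_apply, hv₁, map_smul, map_smul, smul_eq_mul, ← Module.End.mul_apply, ← pow_add]
          split_ifs with h
          · rfl
          · have h2 : N ^ ((i : ℕ) + (p - 1 - k)) = 0 := by
              obtain ⟨d, hd⟩ := Nat.exists_eq_add_of_le (not_lt.mp h)
              rw [hd, pow_add, hN, zero_mul]
            rw [h2]
            simp
        obtain ⟨v₂, hv₂⟩ := ih (g - coordMap f N v₁) (by
          intro i hi
          rw [Pi.sub_apply, hval]
          rcases Nat.eq_or_lt_of_le hi with hik | hik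
          · have h1 : (i : ℕ) + (p - 1 - k) = p - 1 := by omega
            have h2 : i = i₀ := Fin.ext hik.symm
            rw [if_pos (by omega), h1, ← hc, ha, h2, div_mul_cancel₀ _ hv₀, sub_self]
          · rw [hg i hik, if_neg (by have := i.2; omega), sub_self])
        refine ⟨v₂ + v₁, ?_⟩
        rw [map_add, hv₂, sub_add_cancel]
      · exact ih g (fun i hi => hg i (by have := i.2; omega))
  intro g
  exact key p g (fun i hi => absurd i.2 (by omega))

end Shift

/-- **`p`-length at most one without wreath sections.** -/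
theorem plength_one_of_no_wreath {G : Type*} [Group G] [Finite G] (hp2 : p ≠ 2)
    (hnf : ¬ ∃ k : ℕ, p = 2 ^ k + 1) (hG : IsPSolvable p G) (P : Sylow p G)
    (hwr : ∀ (W : Type) [Group W] [Finite W], IsWr p W → ¬ Involves W ↥(P : Subgroup G)) :
    PLengthLE p 1 G := by
  classical
  apply pLengthLE_succ_of_layer (k := 0)
  rw [pLengthLE_zero_iff]
  by_contra hcop
  set O := pPrimeCore p G with hO
  have hOn : O.Normal := pPrimeCore_normal p G
  set G₁ := G ⧸ O with hG₁
  set P₁ := pCore p G₁ with hP₁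
  have hP₁n : P₁.Normal := pCore_normal p G₁
  set G₂ := G₁ ⧸ P₁ with hG₂
  have hsol₁ : IsPSolvable p G₁ := isPSolvable_quotient hG O
  have hcore₁ : pPrimeCore p G₁ = ⊥ := pPrimeCore_quotient p
  let φ : G →* G₂ := (QuotientGroup.mk' P₁).comp (QuotientGroup.mk' O)
  have hφ : Function.Surjective φ :=
    (QuotientGroup.mk'_surjective _).comp (QuotientGroup.mk'_surjective _)
  -- an element of `P` whose image has order `p`
  have hdvd : p ∣ Nat.card G₂ := by
    rw [Nat.coprime_comm] at hcop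
    exact not_not.1 ((Nat.Prime.coprime_iff_not_dvd hp.out).not.1 hcop)
  obtain ⟨x₀, hx₀P, hx₀⟩ : ∃ x₀ ∈ (P : Subgroup G), orderOf (φ x₀) = p := by
    have hle : ∃ z ∈ (P : Subgroup G), φ z ≠ 1 := by
      by_contra hall
      push Not at hall
      have h1 : (P : Subgroup G) ≤ φ.ker := fun z hz => hall z hz
      have h2 : φ.ker.index ∣ (P : Subgroup G).index := Subgroup.index_dvd_of_le h1
      have h3 : φ.ker.index = Nat.card G₂ := by
        rw [Subgroup.index_ker, MonoidHom.range_eq_top.mpr hφ, Nat.card_congr Subgroup.topEquiv.toEquiv]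
      rw [h3] at h2
      exact P.not_dvd_index (hdvd.trans h2)
    obtain ⟨z, hz, hz1⟩ := hle
    obtain ⟨k, hk⟩ := Cfsg.Agent.Lib.Basic.SylowUtil.orderOf_eq_pow_of_mem P hz
    have h1 : orderOf (φ z) ∣ p ^ k := by
      rw [← hk]
      exact orderOf_map_dvd φ z
    obtain ⟨j, -, hj⟩ := (Nat.dvd_prime_pow hp.out).mp h1
    have hj0 : j ≠ 0 := by
      rintro rfl
      rw [pow_zero] at hj
      exact hz1 (orderOf_eq_one_iff.mp hj)
    refine ⟨z ^ p ^ (j - 1), pow_mem hz _, ?_⟩
    rw [map_pow, Cfsg.Agent.Lib.HallHigman.Reduce.orderOf_pow_pow hj (by omega)]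
    have : j - (j - 1) = 1 := by omega
    rw [this, pow_one]
  set xb : G₂ := φ x₀ with hxb
  have hxb1 : xb ≠ 1 := by
    intro h
    rw [h, orderOf_one] at hx₀
    exact hp.out.one_lt.ne hx₀
  obtain ⟨V, _, _, hfinV, ρ, π, hπ, hρ, hact⟩ := exists_layer hsol₁ hcore₁
  set T := ρ xb with hT
  have hTp : T ^ p = 1 := by
    have h1 : xb ^ p = 1 := by
      conv_lhs => rw [← hx₀]
      exact pow_orderOf_eq_one xb
    rw [hT, ← map_pow, h1, map_one]
  have hN : (T - 1) ^ p = 0 := by
    have := Cfsg.Agent.Lib.HallHigman.Block.sub_one_pow_char_pow (p := p) T 1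
    rw [pow_one, hTp, sub_self] at this
    exact this
  have hne : (T - 1) ^ (p - 1) ≠ 0 := by
    intro hs
    have hV : Nontrivial V := by
      by_contra hcon
      rw [not_nontrivial_iff_subsingleton] at hcon
      apply hxb1
      apply hρ
      exact Subsingleton.elim _ _
    haveI : Module.Finite (ZMod p) V := Module.Finite.of_finite
    rcases theorem_b_field (p := p) ρ hρ (isPSolvable_quotient hsol₁ _) pCore_quotient_eq_bot xb 1
      (by rw [pow_one]; exact hx₀) (p - 1) hs with h1 | ⟨n₀, q, m, h1, h2, h3, h4, h5, _⟩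
    · rw [pow_one] at h1
      have := hp.out.pos
      omega
    · have hn₀ : n₀ = 1 := by omega
      subst hn₀
      rw [pow_one] at h5
      have hodd : Odd p := hp.out.odd_of_ne_two hp2
      have h6 : 2 ∣ q ^ m := by
        rw [← h5]
        obtain ⟨r, hr⟩ := hodd
        exact ⟨r, by omega⟩
      have h7 : 2 ∣ q := Nat.prime_two.dvd_of_dvd_pow h6
      have h8 : q = 2 := ((Nat.prime_dvd_prime_iff_eq Nat.prime_two h3).mp h7).symm
      subst h8
      apply hnf
      refine ⟨m, ?_⟩
      have := hp.out.pos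
      omega
  obtain ⟨v₀, hv₀⟩ : ∃ v₀, ((T - 1) ^ (p - 1)) v₀ ≠ 0 := by
    by_contra hcon
    push Not at hcon
    exact hne (LinearMap.ext hcon)
  obtain ⟨f, hf⟩ : ∃ f : Module.Dual (ZMod p) V, f (((T - 1) ^ (p - 1)) v₀) ≠ 0 := by
    by_contra hcon
    push Not at hcon
    exact hv₀ ((Module.forall_dual_apply_eq_zero_iff (ZMod p) _).mp hcon)
  set Ψ := coordMap f (T - 1) with hΨ
  have hΨs : Function.Surjective Ψ := coordMap_surjective f (T - 1) hN v₀ hf
  have hΨT : ∀ v, Ψ (T v) = shiftT p (Ψ v) := by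
    intro v
    have e : T v = v + (T - 1) v := by simp
    rw [e, map_add, hΨ, coordMap_comp f (T - 1) hN]
    simp [shiftT]
  -- the section
  let ι : (P : Subgroup G) →* G₁ := (QuotientGroup.mk' O).comp (P : Subgroup G).subtype
  have hι : Function.Injective ι := by
    rw [injective_iff_map_eq_one]
    rintro ⟨u, hu⟩ h
    have h1 : u ∈ O := (QuotientGroup.eq_one_iff u).mp h
    apply Subtype.ext
    show u = 1
    obtain ⟨k, hk⟩ := Cfsg.Agent.Lib.Basic.SylowUtil.orderOf_eq_pow_of_mem P hu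
    have h2 : orderOf u ∣ Nat.card O := by
      have := orderOf_dvd_natCard (⟨u, h1⟩ : O)
      rwa [Subgroup.orderOf_mk] at this
    have h3 : (p ^ k).Coprime (Nat.card O) :=
      Nat.Coprime.pow_left k (pPrimeCore_coprime p).symm
    rw [hk] at h2
    have h4 : p ^ k = 1 := Nat.eq_one_of_dvd_coprimes h3 dvd_rfl h2
    rw [h4] at hk
    exact orderOf_eq_one_iff.mp hk
  have hPrange : ∀ w ∈ P₁, ∃ u, ι u = w := by
    intro w hw
    have h1 := pCore_le_sylow (P.mapSurjective (QuotientGroup.mk'_surjective O)) hw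
    rw [Sylow.coe_mapSurjective] at h1
    obtain ⟨u, hu, rfl⟩ := h1
    exact ⟨⟨u, hu⟩, rfl⟩
  let lam : (P : Subgroup G) →* G₂ := (QuotientGroup.mk' P₁).comp ι
  set K : Subgroup (P : Subgroup G) := (Subgroup.zpowers xb).comap lam with hK
  let lamK : K →* G₂ := lam.comp K.subtype
  set B : Subgroup K := lamK.ker with hB
  have hBn : B.Normal := MonoidHom.normal_ker _
  let x : K := ⟨⟨x₀, hx₀P⟩, Subgroup.mem_zpowers xb⟩
  have hlamx : lamK x = xb := rfl
  have hidx : B.index = p := by
    rw [hB, Subgroup.index_ker]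
    have h1 : lamK.range = Subgroup.zpowers xb := by
      apply le_antisymm
      · rintro _ ⟨u, rfl⟩
        exact u.2
      · rw [Subgroup.zpowers_le]
        exact ⟨x, hlamx⟩
    rw [h1, Nat.card_zpowers, hx₀]
  have hx : x ∉ B := by
    intro h
    exact hxb1 h
  let θ : B →* P₁ := ((ι.comp K.subtype).comp B.subtype).codRestrict P₁ (by
    intro u
    exact (QuotientGroup.eq_one_iff _).mp u.2)
  have hθ : ∀ u : B, ((θ u : P₁) : G₁) = ι ((u : K) : (P : Subgroup G)) := fun _ => rfl
  have hθs : Function.Surjective θ := by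
    rintro ⟨w, hw⟩
    obtain ⟨u, rfl⟩ := hPrange w hw
    have h1 : lam u = 1 := (QuotientGroup.eq_one_iff _).mpr hw
    have h2 : u ∈ K := by
      show lam u ∈ Subgroup.zpowers xb
      rw [h1]
      exact one_mem _
    exact ⟨⟨⟨u, h2⟩, h1⟩, rfl⟩
  let ψ : B →* Multiplicative (Fin p → ZMod p) :=
    (AddMonoidHom.toMultiplicative Ψ.toAddMonoidHom).comp (π.comp θ)
  have hψ0 : ∀ u : B, Multiplicative.toAdd (ψ u) = Ψ (Multiplicative.toAdd (π (θ u))) := fun _ => rfl
  have hψ : Function.Surjective ψ := by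
    intro w
    obtain ⟨v, hv⟩ := hΨs (Multiplicative.toAdd w)
    obtain ⟨a, ha⟩ := hπ (Multiplicative.ofAdd v)
    obtain ⟨u, rfl⟩ := hθs a
    refine ⟨u, ?_⟩
    apply Multiplicative.toAdd.injective
    rw [hψ0, ha]
    exact hv
  have hrel : ∀ u : B, Multiplicative.toAdd (ψ (MulAut.conjNormal x u)) =
      shiftT p (Multiplicative.toAdd (ψ u)) := by
    intro u
    have h1 : θ (MulAut.conjNormal x u) = MulAut.conjNormal (ι x) (θ u) := by
      apply Subtype.ext
      rw [hθ]
      simp only [MulAut.conjNormal_apply, Subgroup.coe_mul, InvMemClass.coe_inv, map_mul, map_inv, hθ]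
    rw [hψ0, hψ0, h1, hact, ← hΨT]
    rfl
  obtain ⟨R, hRn, hW⟩ := isWr_quotient B hidx (shiftT p) (shiftT_injective p) ψ hψ x hx hrel
    (card_shift_space p) (card_shift_ker p) (shift_himg p)
  obtain ⟨W, _, _, ⟨e⟩⟩ := exists_small_copy (K ⧸ R)
  apply hwr W (hW.of_mulEquiv e)
  have hsub : (R.map K.subtype).subgroupOf K = R :=
    Subgroup.comap_map_eq_self_of_injective K.subtype_injective R
  have hnorm : ((R.map K.subtype).subgroupOf K).Normal := by
    rw [hsub]
    exact hRn
  exact ⟨K, R.map K.subtype, hnorm, ⟨(QuotientGroup.quotientMulEquivOfEq hsub).trans e⟩⟩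

end Cfsg.Agent.Lib.HallHigman.Wreath
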